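import Mathlib
import Cfsg.Agent.Helper8.S4504Defs
import Cfsg.Agent.Helper14.S4504BDefs

/-!
# S4504, sub-call S4504B (helper14), piece KAPPA: the sign sums over `⟨x⟩ \ 1`
-/

set_option autoImplicit false
open Cfsg Cfsg.Agent.Helper8 Cfsg.Agent.Helper14.S4504B
open scoped ComplexConjugate

universe u

namespace Cfsg.Agent.Helper75.S4504BKAPPA

theorem s4504b_kappa {H : Type u} [Group H] [Finite H] (p : ℕ) [Fact p.Prime] (x : H)
    (χ : H → ℂ) (d : ℕ) (hp : p = 2 * d + 1) (T : S4504Tab p d x χ) :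
    (∑ b ∈ bset p, kap χ x b = 0) ∧
    (∑ b ∈ bset p, kap χ x b * χ (x ^ b) = (d : ℂ) * (χ x - (T.χ₂ : H → ℂ) x)) ∧
    (∑ b ∈ bset p, kap χ x b * (T.χ₂ : H → ℂ) (x ^ b)
      = (d : ℂ) * ((T.χ₂ : H → ℂ) x - χ x)) := by
  have hppos : 0 < p := by omega
  have hA : ((bset p).filter (fun b => χ (x ^ b) = χ x)).card = d := by
    unfold bset
    rw [Finset.filter_filter]
    convert T.hhalf
  have hB : ((bset p).filter (fun b => ¬ χ (x ^ b) = χ x)).card = d := by
    have h := Finset.card_filter_add_card_filter_not (s := bset p)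
      (fun b => χ (x ^ b) = χ x)
    rw [hA, card_bset p hppos] at h
    omega
  have key : ∀ (f : ℕ → ℂ) (u v : ℂ), (∀ b ∈ bset p, χ (x ^ b) = χ x → f b = u) →
      (∀ b ∈ bset p, ¬ χ (x ^ b) = χ x → f b = v) →
      ∑ b ∈ bset p, kap χ x b * f b = (d : ℂ) * (u - v) := by
    intro f u v hu hv
    rw [← Finset.sum_filter_add_sum_filter_not (bset p) (fun b => χ (x ^ b) = χ x)]
    have h1 : ∑ b ∈ (bset p).filter (fun b => χ (x ^ b) = χ x), kap χ x b * f b
        = ∑ b ∈ (bset p).filter (fun b => χ (x ^ b) = χ x), u := by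
      apply Finset.sum_congr rfl
      intro b hb
      rw [Finset.mem_filter] at hb
      rw [kap_pos hb.2, one_mul, hu b hb.1 hb.2]
    have h2 : ∑ b ∈ (bset p).filter (fun b => ¬ χ (x ^ b) = χ x), kap χ x b * f b
        = ∑ b ∈ (bset p).filter (fun b => ¬ χ (x ^ b) = χ x), -v := by
      apply Finset.sum_congr rfl
      intro b hb
      rw [Finset.mem_filter] at hb
      rw [kap_neg hb.2, hv b hb.1 hb.2]
      ring
    rw [h1, h2, Finset.sum_const, Finset.sum_const, hA, hB]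
    simp only [nsmul_eq_mul]
    ring
  refine ⟨?_, ?_, ?_⟩
  · have h := key (fun _ => 1) 1 1 (fun _ _ _ => rfl) (fun _ _ _ => rfl)
    simpa using h
  · exact key (fun b => χ (x ^ b)) (χ x) ((T.χ₂ : H → ℂ) x) (fun b _ h => h)
      (fun b hb h => (T.hswap b (not_dvd_of_mem_bset hb) h).1)
  · exact key (fun b => (T.χ₂ : H → ℂ) (x ^ b)) ((T.χ₂ : H → ℂ) x) (χ x)
      (fun b hb h => T.hkeep b (not_dvd_of_mem_bset hb) h)
      (fun b hb h => (T.hswap b (not_dvd_of_mem_bset hb) h).2)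

end Cfsg.Agent.Helper75.S4504BKAPPA
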