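import Cfsg.Agent.Helper9.BRDefs
import Cfsg.Agent.Helper75.BRT1
import Cfsg.Agent.Helper75.BRT3
import Cfsg.Agent.Helper81.SectionChar
import Cfsg.Agent.Helper80.CharIrr

/-!
# CALL S0996 (helper79), piece MP: multiplicities of `1_P` in the irreducible characters (helper75)
-/

set_option autoImplicit false
open Cfsg
open scoped ComplexConjugate

universe u

namespace Cfsg.Agent.Helper75

theorem brn_table_P {G : Type u} [Group G] [Fintype G] {p : ℕ} [Fact p.Prime] (hodd : p ≠ 2)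
    {M : Ideal Cfsg.AlgInt} (hM : Cfsg.IsPModular p M)
    (P : Sylow p G) (hP : Nat.card (P : Subgroup G) = p)
    (hC : Nat.card (Subgroup.centralizer ((P : Subgroup G) : Set G)) = p)
    (q n f : ℕ) (T : Cfsg.Agent.Helper9.BRTab p M P q) (hq2 : 2 ≤ q) (hqd : q ∣ p - 1)
    (hX1 : ∀ χ ∈ T.X1, Cfsg.charDegree (χ : G → ℂ) = 1 + n * p)
    (hX2 : ∀ χ ∈ T.X2, Cfsg.charDegree (χ : G → ℂ) = p - 1)
    (hY : ∀ θ ∈ T.Y, Cfsg.charDegree (θ : G → ℂ) = f) :
    ∃ mP : Cfsg.IrrCharacter G → ℕ,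
      (∀ χ : Cfsg.IrrCharacter G,
        ∑ᶠ x : (P : Subgroup G), (χ : G → ℂ) (x : G) = (p : ℂ) * (mP χ : ℂ)) ∧
      mP (Cfsg.Agent.Helper81.trivIrr G) = 1 ∧
      (∀ χ ∈ T.X1, mP χ = n + 1) ∧ (∀ χ ∈ T.X2, mP χ = 0) ∧
      (∀ χ : Cfsg.IrrCharacter G, χ ∉ Cfsg.principalBlock M G →
        Cfsg.charDegree (χ : G → ℂ) = p * mP χ ∧ 1 ≤ mP χ) ∧
      ((p : ℤ) * ∑ θ ∈ T.Y, (mP θ : ℤ) = (T.Y.card : ℤ) * (f : ℤ) - T.ε * ((p : ℤ) - 1)) := by
  classical
  have hpp : p.Prime := Fact.out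
  have hp1 : 1 ≤ p := hpp.one_lt.le
  have hpC : (p : ℂ) ≠ 0 := by exact_mod_cast hpp.ne_zero
  have hnotdvd : ¬ p ∣ orderOf (1 : G) := by
    rw [orderOf_one]
    exact hpp.not_dvd_one
  -- the set P as a finset
  obtain ⟨S, hS⟩ : ∃ S : Finset G, S = Finset.univ.filter (fun x => x ∈ (P : Subgroup G)) :=
    ⟨_, rfl⟩
  have hmemS : ∀ x, x ∈ S ↔ x ∈ (P : Subgroup G) := by
    intro x
    simp [hS]
  have h1S : (1 : G) ∈ S := (hmemS 1).mpr (one_mem _)
  have hScard : S.card = p := by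
    rw [← hP, Nat.card_eq_fintype_card, Fintype.card_subtype, hS]
  have hS'card : (S.erase 1).card = p - 1 := by
    rw [Finset.card_erase_of_mem h1S, hScard]
  have hmemS' : ∀ x ∈ S.erase 1, x ∈ (P : Subgroup G) ∧ x ≠ 1 := by
    intro x hx
    rw [Finset.mem_erase] at hx
    exact ⟨(hmemS x).mp hx.2, hx.1⟩
  have hfin : ∀ χ : Cfsg.IrrCharacter G,
      ∑ᶠ x : (P : Subgroup G), (χ : G → ℂ) (x : G) = ∑ x ∈ S, (χ : G → ℂ) x := by
    intro χ
    rw [finsum_eq_sum_of_fintype, Finset.sum_subtype S hmemS]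
  -- multiplicities of the trivial character of P
  have hm : ∀ χ : Cfsg.IrrCharacter G, ∃ m : ℕ, ∑ x ∈ S, (χ : G → ℂ) x = (p : ℂ) * m := by
    intro χ
    obtain ⟨k, hk⟩ := Helper81.exists_linMult χ (P : Subgroup G).subtype
      (1 : ↥(P : Subgroup G) →* ℂˣ)
    refine ⟨k, ?_⟩
    rw [Finset.sum_subtype S hmemS]
    rw [← Nat.card_eq_fintype_card, hP] at hk
    rw [← hk]
    refine Finset.sum_congr rfl (fun x _ => ?_)
    simp
  choose m hm using hm
  have hd1 : ∀ χ : Cfsg.IrrCharacter G,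
      (χ : G → ℂ) 1 = (Cfsg.charDegree (χ : G → ℂ) : ℂ) := fun χ => Helper80.irr_one_eq χ
  have hp1C : ((p - 1 : ℕ) : ℂ) = (p : ℂ) - 1 := by
    rw [Nat.cast_sub hp1, Nat.cast_one]
  refine ⟨m, fun χ => (hfin χ).trans (hm χ), ?_, ?_, ?_, ?_, ?_⟩
  · -- trivial character
    have h := hm (Helper81.trivIrr G)
    simp only [Helper81.trivIrr_apply, Finset.sum_const, nsmul_eq_mul, mul_one, hScard] at h
    have h2 : (p : ℂ) * 1 = (p : ℂ) * (m (Helper81.trivIrr G) : ℂ) := by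
      rw [mul_one]
      exact h
    have h3 := mul_left_cancel₀ hpC h2
    exact_mod_cast h3.symm
  · -- X1
    intro χ hχ
    have h := hm χ
    rw [← Finset.add_sum_erase S _ h1S, hd1 χ] at h
    have h2 : ∀ x ∈ S.erase 1, (χ : G → ℂ) x = 1 := by
      intro x hx
      have := (T.hX1 χ hχ).2 x (hmemS' x hx).1 (hmemS' x hx).2 1 (one_mem _) hnotdvd
      rwa [mul_one] at this
    rw [Finset.sum_congr rfl h2, Finset.sum_const, hS'card, nsmul_eq_mul, mul_one,
      hX1 χ hχ] at h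
    have h3 : (1 + n * p) + (p - 1) = p * m χ := by exact_mod_cast h
    have h5 : p * m χ = p * (n + 1) := by
      rw [← h3]
      have h6 : 1 + n * p + (p - 1) = n * p + p := by omega
      rw [h6]
      ring
    exact Nat.eq_of_mul_eq_mul_left (by omega) h5
  · -- X2
    intro χ hχ
    have h := hm χ
    rw [← Finset.add_sum_erase S _ h1S, hd1 χ] at h
    have h2 : ∀ x ∈ S.erase 1, (χ : G → ℂ) x = -1 := by
      intro x hx
      have := (T.hX2 χ hχ).2 x (hmemS' x hx).1 (hmemS' x hx).2 1 (one_mem _) hnotdvd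
      rwa [mul_one] at this
    rw [Finset.sum_congr rfl h2, Finset.sum_const, hS'card, nsmul_eq_mul, hX2 χ hχ] at h
    have h5 : (p : ℂ) * (m χ : ℂ) = 0 := by
      rw [← h]
      ring
    rcases mul_eq_zero.mp h5 with h6 | h6
    · exact absurd h6 hpC
    · exact_mod_cast h6
  · -- outside the principal block
    intro χ hχ
    have h := hm χ
    rw [← Finset.add_sum_erase S _ h1S, hd1 χ] at h
    rw [Finset.sum_congr rfl
      (fun x hx => br_vanish hM P hP hC χ hχ x (hmemS' x hx).1 (hmemS' x hx).2),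
      Finset.sum_const_zero, add_zero] at h
    have h2 : Cfsg.charDegree (χ : G → ℂ) = p * m χ := by exact_mod_cast h
    refine ⟨h2, ?_⟩
    have h3 := Helper81.charDegree_pos χ
    rw [h2] at h3
    by_contra h4
    have h5 : m χ = 0 := by omega
    rw [h5, mul_zero] at h3
    exact lt_irrefl 0 h3
  · -- the exceptional characters
    have hYne : T.Y.Nonempty := by
      rw [← Finset.card_pos, T.hcardY]
      obtain ⟨c, hc⟩ := hqd
      have hc1 : 1 ≤ c := by
        by_contra h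
        have h0 : c = 0 := by omega
        rw [h0, mul_zero] at hc
        have := hpp.two_le
        omega
      rw [hc, Nat.mul_div_cancel_left c (by omega)]
      exact hc1
    have h1 : ∑ θ ∈ T.Y, (p : ℂ) * (m θ : ℂ)
        = (T.Y.card : ℂ) * (f : ℂ) - (T.ε : ℂ) * ((p : ℂ) - 1) := by
      rw [← Finset.sum_congr rfl (fun θ _ => hm θ), Finset.sum_comm,
        ← Finset.add_sum_erase S _ h1S]
      rw [Finset.sum_congr rfl
        (fun x hx => br_theta_sum hM T hYne x (hmemS' x hx).1 (hmemS' x hx).2),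
        Finset.sum_const, hS'card, nsmul_eq_mul]
      have h2 : ∑ θ ∈ T.Y, (θ : G → ℂ) 1 = (T.Y.card : ℂ) * (f : ℂ) := by
        have h3 : ∀ θ ∈ T.Y, (θ : G → ℂ) 1 = (f : ℂ) := by
          intro θ hθ
          rw [hd1 θ, hY θ hθ]
        rw [Finset.sum_congr rfl h3, Finset.sum_const, nsmul_eq_mul]
      rw [h2, hp1C]
      ring
    have h2 : (((p : ℤ) * ∑ θ ∈ T.Y, (m θ : ℤ) : ℤ) : ℂ)
        = (((T.Y.card : ℤ) * (f : ℤ) - T.ε * ((p : ℤ) - 1) : ℤ) : ℂ) := by
      push_cast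
      rw [← h1, Finset.mul_sum]
    exact_mod_cast h2

end Cfsg.Agent.Helper75
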