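import Cfsg.Agent.Helper75.DefClass
import Cfsg.Agent.Helper16.FMT
import Cfsg.Agent.Helper16.ExtFMT
import Cfsg.Agent.Helper77.OrbitIdem

/-!
# The Brauer correspondence in coefficient form

Let `ε` be a class function with local values which is idempotent modulo the local ideal, and
`f` a block.

* `conv_blockCoeff_memLocalIdeal_of_omega`: if `Ω_ξ(ε) ≡ 0` on `f` then `ε * e_f ≡ 0`.
* `blockCoeff_sub_conv_memLocalIdeal_of_omega`: if `Ω_ξ(ε) ≡ 1` on `f` then `ε * e_f ≡ e_f`.
* `eq_sum_conv_blockCoeff`: `ε = ∑_f ε * e_f`.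
* `fmt_blockCoeff_congr`: if the block `b` of `N_G(D)` induces the block `B` with defect group
  `D`, then `e_B ≡ e_b` on `C_G(D)`.
* `block_eq_of_blockCoeff_congr`: two blocks of `L` (`P ≤ L ≤ N_G(P)`) whose idempotents are
  congruent on `C_G(P)` are equal.
-/

set_option autoImplicit false
open Cfsg

namespace Cfsg.Agent.Helper75

universe u

variable {G : Type u} [Group G] [Fintype G]

theorem conv_blockCoeff_absorb {ε : G → ℂ} (hεc : Cfsg.IsClassFunction G ε)
    (f : Set (Cfsg.IrrCharacter G)) :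
    Helper81.conv (Cfsg.blockCoeff f) (Helper81.conv ε (Cfsg.blockCoeff f))
      = Helper81.conv ε (Cfsg.blockCoeff f) := by
  rw [← Helper16.conv_assoc, Helper16.conv_comm_of_isClassFunction (Cfsg.blockCoeff f) hεc,
    Helper16.conv_assoc, Helper77.conv_blockCoeff]

theorem conv_blockCoeff_idem_modJ {M : Ideal Cfsg.AlgInt} (hMm : M.IsMaximal) {ε : G → ℂ}
    (hεc : Cfsg.IsClassFunction G ε)
    (hεi : ∀ g, Cfsg.MemLocalIdeal M (Helper81.conv ε ε g - ε g))
    {f : Set (Cfsg.IrrCharacter G)} (hf : Cfsg.IsPBlock M f) (h : G) :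
    Cfsg.MemLocalIdeal M
      (Helper81.conv (Helper81.conv ε (Cfsg.blockCoeff f)) (Helper81.conv ε (Cfsg.blockCoeff f)) h
        - Helper81.conv ε (Cfsg.blockCoeff f) h) := by
  have hfS := Helper77.blockCoeff_memLocalRing hMm hf
  have huu : Helper81.conv (Helper81.conv ε (Cfsg.blockCoeff f))
      (Helper81.conv ε (Cfsg.blockCoeff f))
      = Helper81.conv (Helper81.conv ε ε) (Cfsg.blockCoeff f) := by
    rw [Helper16.conv_assoc ε (Cfsg.blockCoeff f), conv_blockCoeff_absorb hεc, Helper16.conv_assoc]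
  rw [huu]
  have h1 : Helper81.conv (Helper81.conv ε ε) (Cfsg.blockCoeff f) h
      - Helper81.conv ε (Cfsg.blockCoeff f) h
      = Helper81.conv (Helper81.conv ε ε - ε) (Cfsg.blockCoeff f) h := by
    rw [Helper16.conv_sub_left]
    rfl
  rw [h1]
  exact Helper16.conv_memLocalIdeal_left hMm (fun x => hεi x) hfS h

/-- If `Ω_ξ(ε) ≡ 0` for the members `ξ` of the block `f`, then `ε * e_f ≡ 0`. -/
theorem conv_blockCoeff_memLocalIdeal_of_omega {M : Ideal Cfsg.AlgInt} (hMm : M.IsMaximal)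
    {ε : G → ℂ} (hεc : Cfsg.IsClassFunction G ε) (hεS : ∀ g, Cfsg.MemLocalRing M (ε g))
    (hεi : ∀ g, Cfsg.MemLocalIdeal M (Helper81.conv ε ε g - ε g))
    {f : Set (Cfsg.IrrCharacter G)} (hf : Cfsg.IsPBlock M f)
    (hom : ∀ ξ ∈ f, Cfsg.MemLocalIdeal M (Helper81.omega (ξ : G → ℂ) ε)) (h : G) :
    Cfsg.MemLocalIdeal M (Helper81.conv ε (Cfsg.blockCoeff f) h) := by
  have hfc := Helper77.blockCoeff_isClassFunction f
  have hfS := Helper77.blockCoeff_memLocalRing hMm hf
  refine Helper16.memLocalIdeal_of_idem_of_omega hMm (Helper81.conv_isClassFunction hεc hfc)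
    (Helper16.conv_memLocalRing hMm hεS hfS) (conv_blockCoeff_idem_modJ hMm hεc hεi hf) ?_ h
  intro ξ
  rw [Helper81.omega_conv ξ hεc hfc]
  by_cases hξ : ξ ∈ f
  · rw [Helper77.omega_blockCoeff_of_mem hξ, mul_one]
    exact hom ξ hξ
  · rw [Helper77.omega_blockCoeff_of_not_mem hξ, mul_zero]
    exact Helper77.memLocalIdeal_zero hMm

/-- If `Ω_ξ(ε) ≡ 1` for the members `ξ` of the block `f`, then `ε * e_f ≡ e_f`. -/
theorem blockCoeff_sub_conv_memLocalIdeal_of_omega {M : Ideal Cfsg.AlgInt} (hMm : M.IsMaximal)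
    {ε : G → ℂ} (hεc : Cfsg.IsClassFunction G ε) (hεS : ∀ g, Cfsg.MemLocalRing M (ε g))
    (hεi : ∀ g, Cfsg.MemLocalIdeal M (Helper81.conv ε ε g - ε g))
    {f : Set (Cfsg.IrrCharacter G)} (hf : Cfsg.IsPBlock M f)
    (hom : ∀ ξ ∈ f, Cfsg.MemLocalIdeal M (Helper81.omega (ξ : G → ℂ) ε - 1)) (h : G) :
    Cfsg.MemLocalIdeal M (Cfsg.blockCoeff f h - Helper81.conv ε (Cfsg.blockCoeff f) h) := by
  have hfc := Helper77.blockCoeff_isClassFunction f
  have hfS := Helper77.blockCoeff_memLocalRing hMm hf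
  have huc := Helper81.conv_isClassFunction hεc hfc
  have huS := Helper16.conv_memLocalRing hMm hεS hfS
  have hfu := conv_blockCoeff_absorb hεc f
  have huf : Helper81.conv (Helper81.conv ε (Cfsg.blockCoeff f)) (Cfsg.blockCoeff f)
      = Helper81.conv ε (Cfsg.blockCoeff f) := by
    rw [Helper16.conv_assoc, Helper77.conv_blockCoeff]
  have hwc : Cfsg.IsClassFunction G (Cfsg.blockCoeff f - Helper81.conv ε (Cfsg.blockCoeff f)) :=
    Helper81.isClassFunction_sub hfc huc
  have hwS : ∀ h, Cfsg.MemLocalRing M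
      ((Cfsg.blockCoeff f - Helper81.conv ε (Cfsg.blockCoeff f)) h) := fun h => by
    rw [Pi.sub_apply]
    exact Helper77.memLocalRing_sub hMm (hfS h) (huS h)
  have hww : ∀ h, Cfsg.MemLocalIdeal M
      (Helper81.conv (Cfsg.blockCoeff f - Helper81.conv ε (Cfsg.blockCoeff f))
        (Cfsg.blockCoeff f - Helper81.conv ε (Cfsg.blockCoeff f)) h
        - (Cfsg.blockCoeff f - Helper81.conv ε (Cfsg.blockCoeff f)) h) := by
    intro h
    have h1 : Helper81.conv (Cfsg.blockCoeff f - Helper81.conv ε (Cfsg.blockCoeff f))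
        (Cfsg.blockCoeff f - Helper81.conv ε (Cfsg.blockCoeff f)) h
        - (Cfsg.blockCoeff f - Helper81.conv ε (Cfsg.blockCoeff f)) h
        = Helper81.conv (Helper81.conv ε (Cfsg.blockCoeff f))
            (Helper81.conv ε (Cfsg.blockCoeff f)) h
          - Helper81.conv ε (Cfsg.blockCoeff f) h := by
      rw [Helper16.conv_sub_left, Helper16.conv_sub_right, Helper16.conv_sub_right,
        Helper77.conv_blockCoeff, hfu, huf]
      simp only [Pi.sub_apply]
      ring
    rw [h1]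
    exact conv_blockCoeff_idem_modJ hMm hεc hεi hf h
  refine Helper16.memLocalIdeal_of_idem_of_omega hMm hwc hwS hww ?_ h
  intro ξ
  rw [Helper81.omega_sub, Helper81.omega_conv ξ hεc hfc]
  by_cases hξ : ξ ∈ f
  · rw [Helper77.omega_blockCoeff_of_mem hξ, mul_one]
    have := Helper77.memLocalIdeal_neg (hom ξ hξ)
    rwa [neg_sub] at this
  · rw [Helper77.omega_blockCoeff_of_not_mem hξ, mul_zero, sub_zero]
    exact Helper77.memLocalIdeal_zero hMm

open Classical in
/-- Every function is the sum of its products with the block idempotents. -/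
theorem eq_sum_conv_blockCoeff {M : Ideal Cfsg.AlgInt} (hMm : M.IsMaximal)
    [Fintype (Cfsg.IrrCharacter G)] (ε : G → ℂ) (g : G) :
    ε g = ∑ f ∈ Finset.univ.filter (fun f : Set (Cfsg.IrrCharacter G) => Cfsg.IsPBlock M f),
      Helper81.conv ε (Cfsg.blockCoeff f) g := by
  have h1 : ε = Helper81.conv ε (Helper81.deltaOne 1) := (Helper16.conv_deltaOne_right ε).symm
  conv_lhs => rw [h1]
  simp only [Helper81.conv]
  rw [Finset.sum_comm]
  refine Finset.sum_congr rfl fun x _ => ?_
  rw [← Finset.mul_sum, Helper77.sum_blocks_blockCoeff hMm]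

/-- **First Main Theorem, coefficient form.** If the block `b` of `N_G(D)` induces the block `B`
of `G` with defect group `D`, then the idempotents of `B` and `b` are congruent on `C_G(D)`. -/
theorem fmt_blockCoeff_congr {p : ℕ} [Fact p.Prime] {M : Ideal Cfsg.AlgInt}
    (hM : Cfsg.IsPModular p M) (D : Subgroup G) [Fintype (Subgroup.normalizer (D : Set G))]
    (hDp : IsPGroup p D) {B : Set (Cfsg.IrrCharacter G)}
    {b : Set (Cfsg.IrrCharacter (Subgroup.normalizer (D : Set G)))}
    (hind : Cfsg.IsInducedBlock M (Subgroup.normalizer (D : Set G)) b B)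
    (hDB : Cfsg.IsDefectGroup p M B D) (x : G) (hx : x ∈ Subgroup.centralizer (D : Set G)) :
    Cfsg.MemLocalIdeal M (Cfsg.blockCoeff B x
      - Cfsg.blockCoeff b ⟨x, Subgroup.centralizer_le_normalizer _ hx⟩) := by
  classical
  have hMm := hM.2.1
  haveI : Fintype (Cfsg.IrrCharacter (Subgroup.normalizer (D : Set G))) := Fintype.ofFinite _
  have hB := hind.2.1
  have hb := hind.1
  have hDN : D ≤ Subgroup.normalizer (D : Set G) := Subgroup.le_normalizer
  have hCN : Subgroup.centralizer (D : Set G) ≤ Subgroup.normalizer (D : Set G) :=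
    Subgroup.centralizer_le_normalizer _
  have hBS := Helper77.blockCoeff_memLocalRing hMm hB
  have hBc := Helper77.blockCoeff_isClassFunction B
  set ε : Subgroup.normalizer (D : Set G) → ℂ :=
    Helper16.brRes D (Subgroup.normalizer (D : Set G)) (Cfsg.blockCoeff B) with hε
  have he1 : Cfsg.IsClassFunction (Subgroup.normalizer (D : Set G)) ε :=
    Helper16.isClassFunction_brRes le_rfl hBc
  have he2 : ∀ h, Cfsg.MemLocalRing M (ε h) := by
    intro h
    simp only [hε, Helper16.brRes]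
    split_ifs
    · exact hBS _
    · exact Helper77.memLocalRing_zero hMm
  have he3 : ∀ h, Cfsg.MemLocalIdeal M (Helper81.conv ε ε h - ε h) := by
    intro h
    have h1 := Helper16.brRes_conv_sub_memLocalIdeal hM D (Subgroup.normalizer (D : Set G)) hDp
      hCN hBc hBS hBc hBS h
    rw [Helper77.conv_blockCoeff] at h1
    have h2 := Helper77.memLocalIdeal_neg h1
    rwa [neg_sub] at h2
  have hval : Cfsg.blockCoeff B x = ε ⟨x, hCN hx⟩ := by
    rw [hε, Helper16.brRes_apply_of_mem _ hx]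
  rw [hval, eq_sum_conv_blockCoeff hMm ε ⟨x, hCN hx⟩]
  have hbmem : b ∈ Finset.univ.filter
      (fun f : Set (Cfsg.IrrCharacter (Subgroup.normalizer (D : Set G))) => Cfsg.IsPBlock M f) :=
    Finset.mem_filter.mpr ⟨Finset.mem_univ _, hb⟩
  rw [← Finset.add_sum_erase _ _ hbmem, add_sub_right_comm]
  obtain ⟨χ, hχ⟩ := Helper16.exists_mem_of_isPBlock hMm hB
  refine Helper77.memLocalIdeal_add hMm ?_ (Helper77.memLocalIdeal_sum hMm _ _ fun f hf => ?_)
  · -- the block `b` itself
    have h1 := blockCoeff_sub_conv_memLocalIdeal_of_omega hMm he1 he2 he3 hb (fun ξ hξ => by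
      have h2 := Helper16.omega_brRes_sub_memLocalIdeal_of_induced hM D
        (Subgroup.normalizer (D : Set G)) hDp hDN le_rfl hind hξ hχ hBc hBS
      rwa [Helper77.omega_blockCoeff_of_mem hχ] at h2) ⟨x, hCN hx⟩
    have h3 := Helper77.memLocalIdeal_neg h1
    rwa [neg_sub] at h3
  · -- the other blocks
    rw [Finset.mem_erase, Finset.mem_filter] at hf
    obtain ⟨hfb, -, hfB⟩ := hf
    obtain ⟨Bf, hindf⟩ := Helper16.exists_isInducedBlock hM D (Subgroup.normalizer (D : Set G))
      hDp hDN hCN le_rfl hfB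
    have hne : Bf ≠ B := by
      intro hBf
      rw [hBf] at hindf
      have hDf := Helper16.isDefectGroup_subgroupOf_of_induced hM hDp hDN le_rfl hindf hDB
      exact hfb (Helper16.fmt_unique hM D hDp hDf hindf hind).symm
    obtain ⟨χf, hχf⟩ := Helper16.exists_mem_of_isPBlock hMm hindf.2.1
    have hχfB : χf ∉ B := by
      intro h
      exact hne ((Helper16.eq_blockOf_of_mem hMm hindf.2.1 hχf).trans
        (Helper16.eq_blockOf_of_mem hMm hB h).symm)
    exact conv_blockCoeff_memLocalIdeal_of_omega hMm he1 he2 he3 hfB (fun ξ hξ => by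
      have h2 := Helper16.omega_brRes_sub_memLocalIdeal_of_induced hM D
        (Subgroup.normalizer (D : Set G)) hDp hDN le_rfl hindf hξ hχf hBc hBS
      rwa [Helper77.omega_blockCoeff_of_not_mem hχfB, sub_zero] at h2) ⟨x, hCN hx⟩

/-- Two blocks of `L` (`P ≤ L ≤ N_G(P)`) whose idempotents are congruent on `C_G(P)` are equal. -/
theorem block_eq_of_blockCoeff_congr {p : ℕ} [Fact p.Prime] {M : Ideal Cfsg.AlgInt}
    (hM : Cfsg.IsPModular p M) (P L : Subgroup G) [Fintype L] (hP : IsPGroup p P) (hPL : P ≤ L)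
    (hLN : L ≤ Subgroup.normalizer (P : Set G)) {b₁ b₂ : Set (Cfsg.IrrCharacter L)}
    (h₁ : Cfsg.IsPBlock M b₁) (h₂ : Cfsg.IsPBlock M b₂)
    (h : ∀ t : L, (t : G) ∈ Subgroup.centralizer (P : Set G) →
      Cfsg.MemLocalIdeal M (Cfsg.blockCoeff b₁ t - Cfsg.blockCoeff b₂ t)) : b₁ = b₂ := by
  classical
  have hMm := hM.2.1
  have hall : ∀ t : L, Cfsg.MemLocalIdeal M ((Cfsg.blockCoeff b₁ - Cfsg.blockCoeff b₂) t) := by
    intro t
    rw [Pi.sub_apply]
    by_cases ht : (t : G) ∈ Subgroup.centralizer (P : Set G)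
    · exact h t ht
    · rw [Helper77.blockCoeff_eq_zero_of_coe_not_mem_centralizer hM P L hP hPL hLN h₁ t ht,
        Helper77.blockCoeff_eq_zero_of_coe_not_mem_centralizer hM P L hP hPL hLN h₂ t ht, sub_zero]
      exact Helper77.memLocalIdeal_zero hMm
  obtain ⟨ξ, hξ⟩ := Helper16.exists_mem_of_isPBlock hMm h₁
  have h3 := Helper16.omega_memLocalIdeal hMm ξ (Helper81.isClassFunction_sub
    (Helper77.blockCoeff_isClassFunction b₁) (Helper77.blockCoeff_isClassFunction b₂)) hall
  rw [Helper81.omega_sub, Helper77.omega_blockCoeff_of_mem hξ] at h3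
  have hξ2 : ξ ∈ b₂ := by
    by_contra hξ2
    rw [Helper77.omega_blockCoeff_of_not_mem hξ2, sub_zero] at h3
    exact Helper77.not_memLocalIdeal_one hMm h3
  exact (Helper16.eq_blockOf_of_mem hMm h₁ hξ).trans (Helper16.eq_blockOf_of_mem hMm h₂ hξ2).symm

end Cfsg.Agent.Helper75
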