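import Cfsg.Agent.Helper75.BrCorrCoeff
import Cfsg.Agent.Helper75.BlockTransport

/-!
# The Brauer correspondence over a subgroup containing `N_G(P)`, in coefficient form

* `fmt_coeff_down`, `fmt_coeff_up`: the First Main Theorem with the congruence of idempotents on
  `C_G(D)`.
* `normalizerSubgroupOfEquiv`: `N_H(P) ≃* N_G(P)` for `N_G(P) ≤ H`.
* `brauer_corr_over`: for `N_G(P) ≤ H`, blocks of `G` with defect group `P` correspond to blocks
  of `H` with defect group `P`, the correspondence being given by congruence of the idempotents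
  on `C_G(P)`.
-/

set_option autoImplicit false
open Cfsg

namespace Cfsg.Agent.Helper75

universe u

variable {G : Type u} [Group G] [Fintype G]

/-- First Main Theorem (downwards) with coefficients. -/
theorem fmt_coeff_down {p : ℕ} [Fact p.Prime] {M : Ideal Cfsg.AlgInt}
    (hM : Cfsg.IsPModular p M) (D : Subgroup G) [Fintype (Subgroup.normalizer (D : Set G))]
    (hDp : IsPGroup p D) {B : Set (Cfsg.IrrCharacter G)} (hB : Cfsg.IsPBlock M B)
    (hDB : Cfsg.IsDefectGroup p M B D) :
    ∃ b : Set (Cfsg.IrrCharacter (Subgroup.normalizer (D : Set G))), Cfsg.IsPBlock M b ∧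
      Cfsg.IsDefectGroup p M b (D.subgroupOf (Subgroup.normalizer (D : Set G))) ∧
      Cfsg.IsInducedBlock M (Subgroup.normalizer (D : Set G)) b B ∧
      ∀ (x : G) (hx : x ∈ Subgroup.centralizer (D : Set G)),
        Cfsg.MemLocalIdeal M (Cfsg.blockCoeff B x
          - Cfsg.blockCoeff b ⟨x, Subgroup.centralizer_le_normalizer _ hx⟩) := by
  obtain ⟨b, hb, hDb, hind⟩ := Helper16.fmt_exists hM D hB hDB
  exact ⟨b, hb, hDb, hind, fun x hx => fmt_blockCoeff_congr hM D hDp hind hDB x hx⟩

/-- First Main Theorem (upwards) with coefficients. -/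
theorem fmt_coeff_up {p : ℕ} [Fact p.Prime] {M : Ideal Cfsg.AlgInt}
    (hM : Cfsg.IsPModular p M) (D : Subgroup G) [Fintype (Subgroup.normalizer (D : Set G))]
    (hDp : IsPGroup p D) {b : Set (Cfsg.IrrCharacter (Subgroup.normalizer (D : Set G)))}
    (hb : Cfsg.IsPBlock M b)
    (hDb : Cfsg.IsDefectGroup p M b (D.subgroupOf (Subgroup.normalizer (D : Set G)))) :
    ∃ B : Set (Cfsg.IrrCharacter G), Cfsg.IsPBlock M B ∧ Cfsg.IsDefectGroup p M B D ∧
      Cfsg.IsInducedBlock M (Subgroup.normalizer (D : Set G)) b B ∧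
      ∀ (x : G) (hx : x ∈ Subgroup.centralizer (D : Set G)),
        Cfsg.MemLocalIdeal M (Cfsg.blockCoeff B x
          - Cfsg.blockCoeff b ⟨x, Subgroup.centralizer_le_normalizer _ hx⟩) := by
  obtain ⟨B, hind⟩ := Helper16.exists_isInducedBlock hM D (Subgroup.normalizer (D : Set G)) hDp
    Subgroup.le_normalizer (Subgroup.centralizer_le_normalizer _) le_rfl hb
  have hDB := Helper16.fmt_defectGroup hM D hDp hind hDb
  exact ⟨B, hind.2.1, hDB, hind, fun x hx => fmt_blockCoeff_congr hM D hDp hind hDB x hx⟩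

omit [Fintype G] in
/-- For `N_G(P) ≤ H`, the normalizer of `P` in `H` is isomorphic to `N_G(P)`. -/
def normalizerSubgroupOfEquiv (P H : Subgroup G) (hH : Subgroup.normalizer (P : Set G) ≤ H) :
    Subgroup.normalizer ((P.subgroupOf H : Subgroup H) : Set H) ≃*
      Subgroup.normalizer (P : Set G) where
  toFun n := ⟨((n : H) : G), by
    have hn := n.2
    rw [Subgroup.mem_normalizer_iff] at hn ⊢
    intro x
    constructor
    · intro hx
      have hxH : x ∈ H := hH (Subgroup.le_normalizer hx)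
      have h1 := (hn ⟨x, hxH⟩).mp (by rw [Subgroup.mem_subgroupOf]; exact hx)
      rw [Subgroup.mem_subgroupOf] at h1
      exact h1
    · intro hx
      have hxH : x ∈ H := by
        have h1 : ((n : H) : G) * x * ((n : H) : G)⁻¹ ∈ H := hH (Subgroup.le_normalizer hx)
        have h2 := H.mul_mem (H.mul_mem (H.inv_mem (n : H).2) h1) (n : H).2
        have h3 : ((n : H) : G)⁻¹ * (((n : H) : G) * x * ((n : H) : G)⁻¹) * ((n : H) : G) = x := by
          group
        rwa [h3] at h2
      have h1 := (hn ⟨x, hxH⟩).mpr (by rw [Subgroup.mem_subgroupOf]; exact hx)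
      rw [Subgroup.mem_subgroupOf] at h1
      exact h1⟩
  invFun m := ⟨⟨(m : G), hH m.2⟩, by
    rw [Subgroup.mem_normalizer_iff]
    intro h
    rw [Subgroup.mem_subgroupOf, Subgroup.mem_subgroupOf]
    exact Subgroup.mem_normalizer_iff.mp m.2 (h : G)⟩
  left_inv n := Subtype.ext (Subtype.ext rfl)
  right_inv m := Subtype.ext rfl
  map_mul' a b := Subtype.ext rfl

omit [Fintype G] in
theorem normalizerSubgroupOfEquiv_apply (P H : Subgroup G)
    (hH : Subgroup.normalizer (P : Set G) ≤ H)
    (n : Subgroup.normalizer ((P.subgroupOf H : Subgroup H) : Set H)) :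
    ((normalizerSubgroupOfEquiv P H hH n : Subgroup.normalizer (P : Set G)) : G) = ((n : H) : G) :=
  rfl

omit [Fintype G] in
theorem normalizerSubgroupOfEquiv_symm_apply (P H : Subgroup G)
    (hH : Subgroup.normalizer (P : Set G) ≤ H) (m : Subgroup.normalizer (P : Set G)) :
    ((((normalizerSubgroupOfEquiv P H hH).symm m :
      Subgroup.normalizer ((P.subgroupOf H : Subgroup H) : Set H)) : H) : G) = (m : G) :=
  rfl

/-- **Brauer correspondence over `H ≥ N_G(P)`, coefficient form.** -/
theorem brauer_corr_over {p : ℕ} [Fact p.Prime] {M : Ideal Cfsg.AlgInt}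
    (hM : Cfsg.IsPModular p M) (P H : Subgroup G) (hP : IsPGroup p P)
    (hH : Subgroup.normalizer (P : Set G) ≤ H) :
    (∀ B : Set (Cfsg.IrrCharacter G), Cfsg.IsPBlock M B → Cfsg.IsDefectGroup p M B P →
      ∃! c : Set (Cfsg.IrrCharacter H), Cfsg.IsPBlock M c ∧
        Cfsg.IsDefectGroup p M c (P.subgroupOf H) ∧
        ∀ x : G, x ∈ Subgroup.centralizer (P : Set G) →
          Cfsg.MemLocalIdeal M (Cfsg.blockCoeff B x - Cfsg.subgroupBlockCoeff H c x)) ∧
    (∀ c : Set (Cfsg.IrrCharacter H), Cfsg.IsPBlock M c →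
      Cfsg.IsDefectGroup p M c (P.subgroupOf H) →
      ∃! B : Set (Cfsg.IrrCharacter G), Cfsg.IsPBlock M B ∧ Cfsg.IsDefectGroup p M B P ∧
        ∀ x : G, x ∈ Subgroup.centralizer (P : Set G) →
          Cfsg.MemLocalIdeal M (Cfsg.blockCoeff B x - Cfsg.subgroupBlockCoeff H c x)) := by
  classical
  have hMm := hM.2.1
  haveI : Fintype H := Fintype.ofFinite _
  haveI : Fintype (Subgroup.normalizer (P : Set G)) := Fintype.ofFinite _
  haveI : Fintype (Subgroup.normalizer ((P.subgroupOf H : Subgroup H) : Set H)) :=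
    Fintype.ofFinite _
  have hPHp : IsPGroup p (P.subgroupOf H) := hP.comap_subtype
  have hPH : P ≤ H := le_trans Subgroup.le_normalizer hH
  have hid1 : (P.subgroupOf (Subgroup.normalizer (P : Set G))).comap
      (normalizerSubgroupOfEquiv P H hH).toMonoidHom
      = (P.subgroupOf H).subgroupOf (Subgroup.normalizer ((P.subgroupOf H : Subgroup H) : Set H)) := by
    ext n
    rfl
  have hid2 : ((P.subgroupOf H).subgroupOf
      (Subgroup.normalizer ((P.subgroupOf H : Subgroup H) : Set H))).comap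
      (normalizerSubgroupOfEquiv P H hH).symm.toMonoidHom
      = P.subgroupOf (Subgroup.normalizer (P : Set G)) := by
    ext n
    rfl
  have hxN : ∀ x : G, x ∈ Subgroup.centralizer (P : Set G) → x ∈ Subgroup.normalizer (P : Set G) :=
    fun x hx => Subgroup.centralizer_le_normalizer _ hx
  have hxH : ∀ x : G, x ∈ Subgroup.centralizer (P : Set G) → x ∈ H := fun x hx => hH (hxN x hx)
  have hxCH : ∀ (x : G) (hx : x ∈ Subgroup.centralizer (P : Set G)),
      (⟨x, hxH x hx⟩ : H) ∈ Subgroup.centralizer ((P.subgroupOf H : Subgroup H) : Set H) := by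
    intro x hx
    rw [Subgroup.mem_centralizer_iff]
    intro y hy
    apply Subtype.ext
    exact Subgroup.mem_centralizer_iff.mp hx (y : G) (Subgroup.mem_subgroupOf.mp hy)
  have hCHx : ∀ t : H, t ∈ Subgroup.centralizer ((P.subgroupOf H : Subgroup H) : Set H) →
      (t : G) ∈ Subgroup.centralizer (P : Set G) := by
    intro t ht
    rw [Subgroup.mem_centralizer_iff]
    intro y hy
    have h1 := Subgroup.mem_centralizer_iff.mp ht ⟨y, hPH hy⟩
      (by show (⟨y, hPH hy⟩ : H) ∈ P.subgroupOf H; rw [Subgroup.mem_subgroupOf]; exact hy)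
    exact congrArg Subtype.val h1
  -- the transported coefficient
  have htr1 : ∀ (b : Set (Cfsg.IrrCharacter (Subgroup.normalizer (P : Set G)))) (x : G)
      (hx : x ∈ Subgroup.centralizer (P : Set G)),
      Cfsg.blockCoeff (irrComp (normalizerSubgroupOfEquiv P H hH) '' b)
        ⟨⟨x, hxH x hx⟩, Subgroup.centralizer_le_normalizer _ (hxCH x hx)⟩
        = Cfsg.blockCoeff b ⟨x, hxN x hx⟩ := by
    intro b x hx
    rw [blockCoeff_image_irrComp]
    rfl
  have htr2 : ∀ (b'' : Set (Cfsg.IrrCharacter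
      (Subgroup.normalizer ((P.subgroupOf H : Subgroup H) : Set H)))) (x : G)
      (hx : x ∈ Subgroup.centralizer (P : Set G)),
      Cfsg.blockCoeff (irrComp (normalizerSubgroupOfEquiv P H hH).symm '' b'') ⟨x, hxN x hx⟩
        = Cfsg.blockCoeff b''
          ⟨⟨x, hxH x hx⟩, Subgroup.centralizer_le_normalizer _ (hxCH x hx)⟩ := by
    intro b'' x hx
    rw [blockCoeff_image_irrComp]
    rfl
  constructor
  · intro B hB hDB
    obtain ⟨b, hb, hDb, hind, hcong⟩ := fmt_coeff_down hM P hP hB hDB
    have hb'' := isPBlock_image_irrComp (M := M) (normalizerSubgroupOfEquiv P H hH) hb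
    have hDb'' := isDefectGroup_image_irrComp (normalizerSubgroupOfEquiv P H hH) hDb
    rw [hid1] at hDb''
    obtain ⟨c, hc, hDc, hindc, hcongc⟩ := fmt_coeff_up hM (P.subgroupOf H) hPHp hb'' hDb''
    refine ⟨c, ⟨hc, hDc, ?_⟩, ?_⟩
    · intro x hx
      have h1 := hcong x hx
      have h2 := hcongc ⟨x, hxH x hx⟩ (hxCH x hx)
      rw [htr1 b x hx] at h2
      rw [subgroupBlockCoeff_of_mem H c (hxH x hx)]
      have h3 := Helper77.memLocalIdeal_sub hMm h1 h2
      have e : Cfsg.blockCoeff B x - Cfsg.blockCoeff b ⟨x, hxN x hx⟩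
          - (Cfsg.blockCoeff c ⟨x, hxH x hx⟩ - Cfsg.blockCoeff b ⟨x, hxN x hx⟩)
          = Cfsg.blockCoeff B x - Cfsg.blockCoeff c ⟨x, hxH x hx⟩ := by ring
      rw [e] at h3
      exact h3
    · rintro c' ⟨hc', hDc', hcong'⟩
      obtain ⟨b₁, hb₁, hDb₁, hind₁, hcong₁⟩ := fmt_coeff_down hM (P.subgroupOf H) hPHp hc' hDc'
      have hbb : b₁ = irrComp (normalizerSubgroupOfEquiv P H hH) '' b := by
        refine block_eq_of_blockCoeff_congr hM (P.subgroupOf H)
          (Subgroup.normalizer ((P.subgroupOf H : Subgroup H) : Set H)) hPHp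
          Subgroup.le_normalizer le_rfl hb₁ hb'' ?_
        intro t ht
        have hx := hCHx (t : H) ht
        have h1 := hcong₁ (t : H) ht
        have h2 := hcong' ((t : H) : G) hx
        rw [subgroupBlockCoeff_of_mem H c' (hxH _ hx)] at h2
        have h3 := hcong ((t : H) : G) hx
        have h4 := htr1 b ((t : H) : G) hx
        have e : Cfsg.blockCoeff b₁ t
            - Cfsg.blockCoeff (irrComp (normalizerSubgroupOfEquiv P H hH) '' b) t
            = (Cfsg.blockCoeff B ((t : H) : G) - Cfsg.blockCoeff b ⟨((t : H) : G), hxN _ hx⟩)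
              - (Cfsg.blockCoeff B ((t : H) : G) - Cfsg.blockCoeff c' ⟨((t : H) : G), hxH _ hx⟩)
              - (Cfsg.blockCoeff c' (t : H) - Cfsg.blockCoeff b₁ ⟨(t : H), Subgroup.centralizer_le_normalizer _ ht⟩) := by
          have e1 : (⟨⟨((t : H) : G), hxH _ hx⟩,
              Subgroup.centralizer_le_normalizer _ (hxCH _ hx)⟩ :
              Subgroup.normalizer ((P.subgroupOf H : Subgroup H) : Set H)) = t := rfl
          rw [e1] at h4
          rw [h4]
          have e2 : (⟨((t : H) : G), hxH _ hx⟩ : H) = (t : H) := rfl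
          have e3 : (⟨(t : H), Subgroup.centralizer_le_normalizer _ ht⟩ :
              Subgroup.normalizer ((P.subgroupOf H : Subgroup H) : Set H)) = t := rfl
          rw [e2, e3]
          ring
        rw [e]
        exact Helper77.memLocalIdeal_sub hMm (Helper77.memLocalIdeal_sub hMm h3 h2) h1
      rw [hbb] at hind₁
      exact isInducedBlock_unique hMm _ hind₁ hindc
  · intro c hc hDc
    obtain ⟨b'', hb'', hDb'', hindc, hcongc⟩ := fmt_coeff_down hM (P.subgroupOf H) hPHp hc hDc
    have hb := isPBlock_image_irrComp (M := M) (normalizerSubgroupOfEquiv P H hH).symm hb''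
    have hDb := isDefectGroup_image_irrComp (normalizerSubgroupOfEquiv P H hH).symm hDb''
    rw [hid2] at hDb
    obtain ⟨B, hB, hDB, hind, hcong⟩ := fmt_coeff_up hM P hP hb hDb
    refine ⟨B, ⟨hB, hDB, ?_⟩, ?_⟩
    · intro x hx
      have h1 := hcong x hx
      have h2 := hcongc ⟨x, hxH x hx⟩ (hxCH x hx)
      rw [htr2 b'' x hx] at h1
      rw [subgroupBlockCoeff_of_mem H c (hxH x hx)]
      have h3 := Helper77.memLocalIdeal_sub hMm h1 h2
      have e : Cfsg.blockCoeff B x - Cfsg.blockCoeff b''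
            ⟨⟨x, hxH x hx⟩, Subgroup.centralizer_le_normalizer _ (hxCH x hx)⟩
          - (Cfsg.blockCoeff c ⟨x, hxH x hx⟩ - Cfsg.blockCoeff b''
            ⟨⟨x, hxH x hx⟩, Subgroup.centralizer_le_normalizer _ (hxCH x hx)⟩)
          = Cfsg.blockCoeff B x - Cfsg.blockCoeff c ⟨x, hxH x hx⟩ := by ring
      rw [e] at h3
      exact h3
    · rintro B' ⟨hB', hDB', hcong'⟩
      obtain ⟨b₁, hb₁, hDb₁, hind₁, hcong₁⟩ := fmt_coeff_down hM P hP hB' hDB'
      have hbb : b₁ = irrComp (normalizerSubgroupOfEquiv P H hH).symm '' b'' := by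
        refine block_eq_of_blockCoeff_congr hM P (Subgroup.normalizer (P : Set G)) hP
          Subgroup.le_normalizer le_rfl hb₁ hb ?_
        intro t hx
        have h1 := hcong₁ (t : G) hx
        have h2 := hcong' (t : G) hx
        rw [subgroupBlockCoeff_of_mem H c (hxH _ hx)] at h2
        have h3 := hcongc ⟨(t : G), hxH _ hx⟩ (hxCH _ hx)
        have h4 := htr2 b'' (t : G) hx
        have e : Cfsg.blockCoeff b₁ t
            - Cfsg.blockCoeff (irrComp (normalizerSubgroupOfEquiv P H hH).symm '' b'') t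
            = (Cfsg.blockCoeff B' (t : G) - Cfsg.blockCoeff c ⟨(t : G), hxH _ hx⟩)
              + (Cfsg.blockCoeff c ⟨(t : G), hxH _ hx⟩ - Cfsg.blockCoeff b''
                ⟨⟨(t : G), hxH _ hx⟩, Subgroup.centralizer_le_normalizer _ (hxCH _ hx)⟩)
              - (Cfsg.blockCoeff B' (t : G) - Cfsg.blockCoeff b₁ ⟨(t : G), hxN _ hx⟩) := by
          have e1 : (⟨(t : G), hxN _ hx⟩ : Subgroup.normalizer (P : Set G)) = t := rfl
          rw [e1] at h4
          rw [h4, e1]
          ring
        rw [e]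
        exact Helper77.memLocalIdeal_sub hMm (Helper77.memLocalIdeal_add hMm h2 h3) h1
      rw [hbb] at hind₁
      exact isInducedBlock_unique hMm _ hind₁ hind

end Cfsg.Agent.Helper75
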