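import Mathlib
import Cfsg.Agent.Helper98.C2Defs

/-!
# CALL S5634 (helper98), piece X1: a non-block-monomial element gives a transvection with mixed
centre (helper75)
-/

set_option autoImplicit false

namespace Cfsg.Agent.Helper75.C2X1

open Matrix Cfsg.Agent.Helper98.C2
open scoped MatrixGroups

variable {K : Type*} [Field K]

/-- A rank-one perturbation of the identity supported in one block, with `ψ ⬝ᵥ x = 0`, lies in
every subgroup containing the block-monomial matrices of determinant one. -/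
theorem rank_one_mem {n t : ℕ} (blk : Fin n → Fin t)
    (M : Subgroup (GL (Fin n) K)) (hH : BlkLE blk M) (c : Fin t) (x ψ : Fin n → K)
    (hx : ∀ i, blk i ≠ c → x i = 0) (hψ : ∀ i, blk i ≠ c → ψ i = 0) (hψx : ψ ⬝ᵥ x = 0) :
    ∃ h ∈ M, h.1 = 1 + Matrix.vecMulVec x ψ := by
  have hdet : (1 + Matrix.vecMulVec x ψ).det = 1 := by
    rw [Matrix.vecMulVec_eq Unit, Matrix.det_one_add_replicateCol_mul_replicateRow, hψx, add_zero]
  refine ⟨Matrix.GeneralLinearGroup.mkOfDetNeZero (1 + Matrix.vecMulVec x ψ)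
    (by rw [hdet]; exact one_ne_zero), ?_, rfl⟩
  apply hH
  · refine ⟨1, ?_⟩
    intro i j hij
    rw [Equiv.Perm.coe_one, id] at hij
    have hne : i ≠ j := fun h => hij (by rw [h])
    show (1 + Matrix.vecMulVec x ψ) i j = 0
    rw [Matrix.add_apply, Matrix.one_apply_ne hne, zero_add, Matrix.vecMulVec_apply]
    by_cases hi : blk i = c
    · have hj : blk j ≠ c := fun h => hij (hi.trans h.symm)
      rw [hψ j hj, mul_zero]
    · rw [hx i hi, zero_mul]
  · exact hdet

/-- Two distinct indices carry a non-zero vector orthogonal to a given one. -/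
theorem exists_perp {n : ℕ} (p p' : Fin n) (hpp' : p ≠ p') (a : Fin n → K) :
    ∃ ψ : Fin n → K, (∀ i, i ≠ p → i ≠ p' → ψ i = 0) ∧ ψ ⬝ᵥ a = 0 ∧ ψ ≠ 0 := by
  classical
  by_cases h0 : a p = 0
  · refine ⟨Pi.single p 1, ?_, ?_, ?_⟩
    · intro i hip _
      simp [hip]
    · rw [single_one_dotProduct, h0]
    · intro h
      have := congrFun h p
      simp at this
  · refine ⟨Pi.single p (a p') - Pi.single p' (a p), ?_, ?_, ?_⟩
    · intro i hip hip'
      simp [hip, hip']
    · rw [sub_dotProduct, single_dotProduct, single_dotProduct]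
      ring
    · intro h
      have := congrFun h p'
      simp [hpp'.symm] at this
      exact h0 this

/-- Conjugating a rank-one perturbation of the identity. -/
theorem conj_rank_one {n : ℕ} (g : GL (Fin n) K) (x ψ : Fin n → K) :
    g.1 * (1 + Matrix.vecMulVec x ψ) * (g⁻¹ : GL (Fin n) K).1
      = 1 + Matrix.vecMulVec (g.1 *ᵥ x) (ψ ᵥ* (g⁻¹ : GL (Fin n) K).1) := by
  have h1 : g.1 * (g⁻¹ : GL (Fin n) K).1 = 1 := by
    rw [← Units.val_mul, mul_inv_cancel, Units.val_one]
  rw [Matrix.mul_add, Matrix.mul_one, Matrix.add_mul, h1, Matrix.mul_vecMulVec,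
    Matrix.vecMulVec_mul]

/-- A non-block-monomial invertible matrix maps some vector supported in one block to a vector
with non-zero coordinates in two different blocks. -/
theorem exists_mixed {n t : ℕ} (blk : Fin n → Fin t) (m : ℕ) (hm : 2 ≤ m)
    (hfib : ∀ b : Fin t, (Finset.univ.filter (fun i => blk i = b)).card = m)
    (g : GL (Fin n) K) (hgm : ¬ IsBlkMono blk g.1) :
    ∃ (c : Fin t) (x : Fin n → K), (∀ i, blk i ≠ c → x i = 0) ∧
      ∃ i i', blk i ≠ blk i' ∧ (g.1 *ᵥ x) i ≠ 0 ∧ (g.1 *ᵥ x) i' ≠ 0 := by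
  classical
  by_contra hcon
  push Not at hcon
  -- columns live in one block
  have h1 : ∀ j i i', g.1 i j ≠ 0 → g.1 i' j ≠ 0 → blk i = blk i' := by
    intro j i i' hi hi'
    by_contra hne
    have hx : ∀ l, blk l ≠ blk j → (Pi.single j (1 : K) : Fin n → K) l = 0 := by
      intro l hl
      have hlj : l ≠ j := fun h => hl (by rw [h])
      simp [hlj]
    have := hcon (blk j) (Pi.single j 1) hx i i' hne (by
      rw [Matrix.mulVec_single_one]; exact hi)
    rw [Matrix.mulVec_single_one] at this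
    exact hi' this
  -- columns of the same block live in the same block
  have h2 : ∀ j j' i i', blk j = blk j' → g.1 i j ≠ 0 → g.1 i' j' ≠ 0 → blk i = blk i' := by
    intro j j' i i' hjj' hi hi'
    by_cases hjeq : j = j'
    · subst hjeq
      exact h1 j i i' hi hi'
    by_contra hne
    have hx : ∀ l, blk l ≠ blk j →
        (Pi.single j (1 : K) + Pi.single j' (1 : K) : Fin n → K) l = 0 := by
      intro l hl
      have hlj : l ≠ j := fun h => hl (by rw [h])
      have hlj' : l ≠ j' := fun h => hl (by rw [h, hjj'])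
      simp [hlj, hlj']
    have e1 : g.1 i' j = 0 := by
      by_contra h
      exact hne (h1 j i i' hi h)
    have e2 : g.1 i j' = 0 := by
      by_contra h
      exact hne (h1 j' i i' h hi')
    have hval : ∀ l, (g.1 *ᵥ (Pi.single j (1 : K) + Pi.single j' (1 : K) : Fin n → K)) l
        = g.1 l j + g.1 l j' := by
      intro l
      rw [Matrix.mulVec_add, Matrix.mulVec_single_one, Matrix.mulVec_single_one]
      rfl
    have := hcon (blk j) _ hx i i' hne (by rw [hval, e2, add_zero]; exact hi)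
    rw [hval, e1, zero_add] at this
    exact hi' this
  -- rows and columns of an invertible matrix are non-zero
  have hinv1 : g.1 * (g⁻¹ : GL (Fin n) K).1 = 1 := by
    rw [← Units.val_mul, mul_inv_cancel, Units.val_one]
  have hinv2 : (g⁻¹ : GL (Fin n) K).1 * g.1 = 1 := by
    rw [← Units.val_mul, inv_mul_cancel, Units.val_one]
  have hrow : ∀ i, ∃ j, g.1 i j ≠ 0 := by
    intro i
    by_contra h
    push Not at h
    have h3 := congrFun (congrFun hinv1 i) i
    rw [Matrix.mul_apply, Matrix.one_apply_eq] at h3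
    rw [Finset.sum_eq_zero (fun l _ => by rw [h l, zero_mul])] at h3
    exact zero_ne_one h3
  have hcol : ∀ j, ∃ i, g.1 i j ≠ 0 := by
    intro j
    by_contra h
    push Not at h
    have h3 := congrFun (congrFun hinv2 j) j
    rw [Matrix.mul_apply, Matrix.one_apply_eq] at h3
    rw [Finset.sum_eq_zero (fun l _ => by rw [h l, mul_zero])] at h3
    exact zero_ne_one h3
  -- fibres are non-empty
  have hfibne : ∀ b : Fin t, ∃ i, blk i = b := by
    intro b
    have hpos : 0 < (Finset.univ.filter (fun i => blk i = b)).card := by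
      rw [hfib b]; omega
    obtain ⟨i, hi⟩ := Finset.card_pos.mp hpos
    exact ⟨i, (Finset.mem_filter.mp hi).2⟩
  -- the block map
  have hex : ∀ c : Fin t, ∃ b : Fin t, ∀ i j, blk j = c → g.1 i j ≠ 0 → blk i = b := by
    intro c
    obtain ⟨j0, hj0⟩ := hfibne c
    obtain ⟨i0, hi0⟩ := hcol j0
    refine ⟨blk i0, ?_⟩
    intro i j hj hij
    exact h2 j j0 i i0 (hj.trans hj0.symm) hij hi0
  choose σ0 hσ0 using hex
  have hsurj : Function.Surjective σ0 := by
    intro b
    obtain ⟨i, hi⟩ := hfibne b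
    obtain ⟨j, hj⟩ := hrow i
    exact ⟨blk j, by rw [← hi]; exact (hσ0 (blk j) i j rfl hj).symm⟩
  have hbij : Function.Bijective σ0 := ⟨Finite.injective_iff_surjective.mpr hsurj, hsurj⟩
  apply hgm
  refine ⟨Equiv.ofBijective σ0 hbij, ?_⟩
  intro i j hij
  by_contra h
  exact hij (hσ0 (blk j) i j rfl h)

theorem blk_mixed {n t : ℕ} (blk : Fin n → Fin t) (m : ℕ) (hm : 2 ≤ m)
    (hfib : ∀ b : Fin t, (Finset.univ.filter (fun i => blk i = b)).card = m)
    (M : Subgroup (GL (Fin n) K)) (hH : BlkLE blk M)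
    (g : GL (Fin n) K) (hg : g ∈ M) (hgm : ¬ IsBlkMono blk g.1) :
    ∃ (a φ : Fin n → K), φ ⬝ᵥ a = 0 ∧ φ ≠ 0 ∧ (∃ i j, blk i ≠ blk j ∧ a i ≠ 0 ∧ a j ≠ 0) ∧
      ∃ k ∈ M, k.1 = 1 + Matrix.vecMulVec a φ := by
  classical
  obtain ⟨c, x, hx, i, i', hii', hi, hi'⟩ := exists_mixed blk m hm hfib g hgm
  -- two indices in the block `c`
  obtain ⟨p, hp, p', hp', hpp'⟩ : ∃ p ∈ Finset.univ.filter (fun i => blk i = c),
      ∃ p' ∈ Finset.univ.filter (fun i => blk i = c), p ≠ p' := by
    apply Finset.one_lt_card.mp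
    rw [hfib c]
    omega
  rw [Finset.mem_filter] at hp hp'
  obtain ⟨ψ, hψsupp, hψx, hψ0⟩ := exists_perp p p' hpp' x
  have hψ : ∀ l, blk l ≠ c → ψ l = 0 := by
    intro l hl
    apply hψsupp l
    · intro h
      rw [h] at hl
      exact hl hp.2
    · intro h
      rw [h] at hl
      exact hl hp'.2
  obtain ⟨h, hhM, hheq⟩ := rank_one_mem blk M hH c x ψ hx hψ hψx
  have hinv2 : (g⁻¹ : GL (Fin n) K).1 * g.1 = 1 := by
    rw [← Units.val_mul, inv_mul_cancel, Units.val_one]
  refine ⟨g.1 *ᵥ x, ψ ᵥ* (g⁻¹ : GL (Fin n) K).1, ?_, ?_, ⟨i, i', hii', hi, hi'⟩,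
    g * h * g⁻¹, M.mul_mem (M.mul_mem hg hhM) (M.inv_mem hg), ?_⟩
  · rw [← Matrix.dotProduct_mulVec, Matrix.mulVec_mulVec, hinv2, Matrix.one_mulVec, hψx]
  · intro h0
    apply hψ0
    have h3 : (ψ ᵥ* (g⁻¹ : GL (Fin n) K).1) ᵥ* g.1 = ψ := by
      rw [Matrix.vecMul_vecMul, hinv2, Matrix.vecMul_one]
    rw [← h3, h0, Matrix.zero_vecMul]
  · rw [Units.val_mul, Units.val_mul, hheq]
    exact conj_rank_one g x ψ

end Cfsg.Agent.Helper75.C2X1
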