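import Cfsg.Agent.Helper75.InertPair

/-!
# Brauer subpairs at central subgroups of a defect group

For a maximal Brauer pair `(D, e)` of `B` and a subgroup `Q` centralized by `D`, the unique
subpair `(Q, f) ≤ (D, e)` has `f` of the same defect as `B`, `f` induces `B` when `Q` is
abelian, and fusion of such subpairs is controlled by `N_G(D, e)`.
-/

set_option autoImplicit false
set_option linter.style.haveILetI false
open Cfsg
open scoped ComplexConjugate

namespace Cfsg.Agent.Helper75

universe u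

variable {G : Type u} [Group G] [Fintype G]

/-- A subpair of a maximal pair at a subgroup centralized by the defect group has the defect of
the block. -/
theorem blockDefect_of_subpair_central {p : ℕ} [Fact p.Prime] {M : Ideal Cfsg.AlgInt}
    (hM : Cfsg.IsPModular p M) {B : Set (Cfsg.IrrCharacter G)} {D Q : Subgroup G}
    {e : Set (Cfsg.IrrCharacter (Subgroup.centralizer (D : Set G)))}
    {f : Set (Cfsg.IrrCharacter (Subgroup.centralizer (Q : Set G)))}
    (hmax : Cfsg.IsMaximalBrauerPair p M B D e) (hle : Cfsg.SubpairLE p M Q f D e)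
    (hDC : D ≤ Subgroup.centralizer (Q : Set G)) :
    Cfsg.IsPBlock M f ∧ Cfsg.IsBrauerPairOf p M B Q f ∧
      Cfsg.blockDefect p f = Cfsg.blockDefect p B := by
  classical
  letI : Fintype (Subgroup.centralizer (Q : Set G)) := Fintype.ofFinite _
  have hB := hmax.1.2.1
  have hpair : Cfsg.IsBrauerPairOf p M B Q f :=
    (Helper77.isBrauerPairOf_iff_of_reflTransGen hM (a := ⟨Q, f⟩) (b := ⟨D, e⟩) hle B hB).mp
      hmax.1
  have hf : Cfsg.IsPBlock M f := hpair.1.2
  refine ⟨hf, hpair, ?_⟩
  have hD1 := Helper77.isDefectGroup_centralizer_of_le_centralizer hM hmax hle hDC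
  have hD2 := Helper77.isDefectGroup_of_isMaximalBrauerPair hM B D e hmax
  have h1 := Helper77.card_of_isDefectGroup hM hf hD1
  have h2 := Helper77.card_of_isDefectGroup hM hB hD2
  have h3 : Nat.card (D.subgroupOf (Subgroup.centralizer (Q : Set G))) = Nat.card D :=
    Nat.card_congr (Subgroup.subgroupOfEquivOfLe hDC).toEquiv
  rw [h3, h2] at h1
  exact (Nat.pow_right_injective (Fact.out : p.Prime).two_le h1).symm

/-- A Brauer pair of `B` at an abelian subgroup gives an induced block. -/
theorem isInducedBlock_of_isBrauerPairOf_abelian {p : ℕ} [Fact p.Prime] {M : Ideal Cfsg.AlgInt}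
    (hM : Cfsg.IsPModular p M) {B : Set (Cfsg.IrrCharacter G)} {Q : Subgroup G}
    {f : Set (Cfsg.IrrCharacter (Subgroup.centralizer (Q : Set G)))}
    (hpair : Cfsg.IsBrauerPairOf p M B Q f) (hQC : Q ≤ Subgroup.centralizer (Q : Set G)) :
    Cfsg.IsInducedBlock M (Subgroup.centralizer (Q : Set G)) f B := by
  classical
  letI : Fintype (Subgroup.centralizer (Q : Set G)) := Fintype.ofFinite _
  have hMm := hM.2.1
  have hf : Cfsg.IsPBlock M f := hpair.1.2
  obtain ⟨ξ, hξ⟩ := Helper16.exists_mem_of_isPBlock hMm hf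
  have hrefl : Subgroup.centralizer (Q : Set G) ≤ Subgroup.centralizer (Q : Set G) := le_rfl
  have h1 := Helper77.isInducedBlock_of_omega_restrict hM hpair (Subgroup.centralizer (Q : Set G))
    hQC hrefl (Subgroup.centralizer_le_normalizer _) hξ ξ (fun a _ _ => by
      have e : (fun c : Subgroup.centralizer (Q : Set G) => a ⟨(c : G), hrefl c.2⟩) = a :=
        funext fun c => rfl
      rw [e, sub_self]
      exact Helper77.memLocalIdeal_zero hMm)
  rwa [← Helper16.eq_blockOf_of_mem hMm hf hξ] at h1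

/-- **Fusion of central subpairs is controlled by the stabilizer of the maximal pair.** -/
theorem exists_stab_of_conjPair_central {p : ℕ} [Fact p.Prime] {M : Ideal Cfsg.AlgInt}
    (hM : Cfsg.IsPModular p M) {B : Set (Cfsg.IrrCharacter G)} {D Q Q' : Subgroup G}
    {e : Set (Cfsg.IrrCharacter (Subgroup.centralizer (D : Set G)))}
    {f : Set (Cfsg.IrrCharacter (Subgroup.centralizer (Q : Set G)))}
    {f' : Set (Cfsg.IrrCharacter (Subgroup.centralizer (Q' : Set G)))}
    (hmax : Cfsg.IsMaximalBrauerPair p M B D e) (hle : Cfsg.SubpairLE p M Q f D e)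
    (hle' : Cfsg.SubpairLE p M Q' f' D e)
    (hDC : D ≤ Subgroup.centralizer (Q : Set G)) (hDC' : D ≤ Subgroup.centralizer (Q' : Set G))
    (g : G) (hg : Helper77.conjPair g ⟨Q, f⟩ = ⟨Q', f'⟩) :
    ∃ c ∈ Subgroup.centralizer (Q' : Set G), c * g ∈ Subgroup.normalizer (D : Set G) ∧
      Cfsg.StabilizesBlock (Subgroup.centralizer (D : Set G)) e (c * g) := by
  classical
  have hQ' : Q.map (MulAut.conj g).toMonoidHom = Q' := congrArg Sigma.fst hg
  have h1 : Relation.ReflTransGen (Cfsg.NormalSubpairRel p M) (⟨Q', f'⟩ : Cfsg.BrauerPairIdx G)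
      (Helper77.conjPair g ⟨D, e⟩) := by
    have := Helper77.subpairLE_conjPair (p := p) (M := M) g
      (a := (⟨Q, f⟩ : Cfsg.BrauerPairIdx G)) (b := ⟨D, e⟩) hle
    rwa [hg] at this
  have hmax₂ := Helper77.isMaximalBrauerPair_conj hM hmax g
  have hC₂ : D.map (MulAut.conj g).toMonoidHom ≤ Subgroup.centralizer (Q' : Set G) := by
    intro w hw
    rw [Helper77.mem_map_conj_iff] at hw
    have hw2 := hDC hw
    rw [Subgroup.mem_centralizer_iff]
    intro q' hq'
    rw [← hQ'] at hq'
    have hq : g⁻¹ * q' * g ∈ Q := (Helper77.mem_map_conj_iff Q g q').mp hq'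
    have hcomm := Subgroup.mem_centralizer_iff.mp hw2 _ hq
    calc q' * w = g * ((g⁻¹ * q' * g) * (g⁻¹ * w * g)) * g⁻¹ := by group
      _ = g * ((g⁻¹ * w * g) * (g⁻¹ * q' * g)) * g⁻¹ := by rw [hcomm]
      _ = w * q' := by group
  obtain ⟨z, hzC, hz⟩ := Helper77.exists_conjPair_eq_of_le_centralizer hM hmax hmax₂ hle' h1
    hDC' hC₂
  have hzg : Helper77.conjPair (z * g) ⟨D, e⟩ = ⟨D, e⟩ := by
    rw [Helper77.conjPair_mul]
    exact hz
  exact ⟨z, hzC, (Helper77.conjPair_eq_self_iff D e (z * g)).1 hzg⟩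

end Cfsg.Agent.Helper75
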