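import Cfsg.Agent.Helper75.SecGalois
import Cfsg.Agent.Helper75.CentSub

/-!
# Brauer's bound for heights via central major subsections (helper75)

Let `(D, e₀)` be a maximal Brauer pair of the block `B`, `|D| = p^d`, `|Z(D)| = p^c`, and
`R = [N_G(D, e₀) : D C_G(D)]`.  Then every `χ ∈ B` of height `h` satisfies `p^(c+h) ≤ R p^d`.

Proof: for `z ∈ Z(D)` let `(⟨z⟩, f_z) ≤ (D, e₀)` and `μ(z)` the contribution of `χ` with itself at
the subsection `(z, f_z)`.  The `μ(z)` are nonzero algebraic integers divisible by `p^h` and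
permuted by the Galois group, so `Σ_z |μ(z)| ≥ p^c p^h`; on the other hand the subsection parts
of `χ` are orthogonal unless the subsections are fused, fusion is controlled by `N_G(D, e₀)`,
and Bessel's inequality gives `Σ_z |μ(z)| ≤ R p^d`.
-/

set_option autoImplicit false
set_option linter.style.haveILetI false
open Cfsg
open scoped ComplexConjugate

namespace Cfsg.Agent.Helper75

universe u

variable {G : Type u} [Group G] [Fintype G]

omit [Fintype G] in
theorem zpowers_central_facts {D : Subgroup G} {z : G} (hzD : z ∈ D)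
    (hzc : ∀ x ∈ D, x * z = z * x) :
    Subgroup.zpowers z ≤ D ∧
      D ≤ Subgroup.centralizer ((Subgroup.zpowers z : Subgroup G) : Set G) ∧
      z ∈ Subgroup.centralizer ((Subgroup.zpowers z : Subgroup G) : Set G) ∧
      (∀ h : Subgroup.centralizer ((Subgroup.zpowers z : Subgroup G) : Set G),
        z * (h : G) = (h : G) * z) ∧
      (∀ g : G, z * g = g * z →
        g ∈ Subgroup.centralizer ((Subgroup.zpowers z : Subgroup G) : Set G)) ∧
      Subgroup.zpowers z ≤ Subgroup.centralizer ((Subgroup.zpowers z : Subgroup G) : Set G) := by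
  have key : ∀ g : G, z * g = g * z →
      g ∈ Subgroup.centralizer ((Subgroup.zpowers z : Subgroup G) : Set G) := by
    intro g hg
    rw [Subgroup.mem_centralizer_iff]
    intro q hq
    obtain ⟨k, rfl⟩ := Subgroup.mem_zpowers_iff.mp hq
    have hc : Commute z g := hg
    exact (hc.zpow_left k).eq
  refine ⟨(Subgroup.zpowers_le).mpr hzD, fun x hx => key x (hzc x hx).symm, key z rfl, ?_, key, ?_⟩
  · intro h
    exact Subgroup.mem_centralizer_iff.mp h.2 z (Subgroup.mem_zpowers z)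
  · rw [Subgroup.zpowers_le]
    exact key z rfl

omit [Fintype G] in
theorem zpowers_pow_eq_of_coprime [Finite G] (z : G) (k : ℕ) (hk : Nat.Coprime k (Nat.card G)) :
    Subgroup.zpowers (z ^ k) = Subgroup.zpowers z := by
  have h1 : Subgroup.zpowers (z ^ k) ≤ Subgroup.zpowers z :=
    (Subgroup.zpowers_le).mpr (Subgroup.pow_mem _ (Subgroup.mem_zpowers z) k)
  refine Subgroup.eq_of_le_of_card_ge h1 ?_
  rw [Nat.card_zpowers, Nat.card_zpowers]
  have h2 : (orderOf z).Coprime k :=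
    (Nat.Coprime.coprime_dvd_right (orderOf_dvd_natCard z) hk).symm
  rw [h2.orderOf_pow]

omit [Fintype G] in
/-- The number of conjugates of `z` under `T` is at most `[T : H]` when `H` centralizes `z`. -/
theorem card_conj_le_relIndex [Finite G] (H T : Subgroup G) (z : G)
    (hHz : ∀ h ∈ H, h * z = z * h) (s : Finset G) (hs : ∀ j ∈ s, ∃ t ∈ T, t * z * t⁻¹ = j) :
    s.card ≤ H.relIndex T := by
  classical
  have : Fintype (T ⧸ H.subgroupOf T) := Fintype.ofFinite _
  have h1 : s ⊆ Finset.univ.image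
      (fun q : T ⧸ H.subgroupOf T => ((q.out : T) : G) * z * ((q.out : T) : G)⁻¹) := by
    intro j hj
    obtain ⟨t, ht, rfl⟩ := hs j hj
    rw [Finset.mem_image]
    refine ⟨QuotientGroup.mk (⟨t, ht⟩ : T), Finset.mem_univ _, ?_⟩
    obtain ⟨h, hh⟩ := QuotientGroup.mk_out_eq_mul (H.subgroupOf T) (⟨t, ht⟩ : T)
    rw [hh]
    have hhH : ((h : T) : G) ∈ H := Subgroup.mem_subgroupOf.mp h.2
    have h2 := hHz _ hhH
    simp only [Subgroup.coe_mul, mul_inv_rev]
    calc t * ((h : T) : G) * z * (((h : T) : G)⁻¹ * t⁻¹)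
        = t * (((h : T) : G) * z) * ((h : T) : G)⁻¹ * t⁻¹ := by group
      _ = t * (z * ((h : T) : G)) * ((h : T) : G)⁻¹ * t⁻¹ := by rw [h2]
      _ = t * z * t⁻¹ := by group
  calc s.card ≤ _ := Finset.card_le_card h1
    _ ≤ (Finset.univ : Finset (T ⧸ H.subgroupOf T)).card := Finset.card_image_le
    _ = Fintype.card (T ⧸ H.subgroupOf T) := Finset.card_univ
    _ = H.relIndex T := by
      rw [← Nat.card_eq_fintype_card]
      rfl

omit [Fintype G] in
theorem exists_conjEquiv_of_conjPair_ne {Q Q' : Subgroup G} (g₀ : G)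
    (hQ : Q'.map (MulAut.conj g₀).toMonoidHom = Q)
    (f : Set (Cfsg.IrrCharacter (Subgroup.centralizer (Q : Set G))))
    (f' : Set (Cfsg.IrrCharacter (Subgroup.centralizer (Q' : Set G))))
    (hne : Helper77.conjPair g₀ ⟨Q', f'⟩ ≠ ⟨Q, f⟩) :
    ∃ σ : Subgroup.centralizer (Q : Set G) ≃* Subgroup.centralizer (Q' : Set G),
      (∀ s, ((σ s : Subgroup.centralizer (Q' : Set G)) : G) = g₀⁻¹ * (s : G) * g₀) ∧
        f ≠ irrComp σ '' f' := by
  subst hQ
  refine ⟨centralizerConjEquiv Q' g₀, fun s => rfl, fun heq => hne ?_⟩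
  show (⟨Q'.map (MulAut.conj g₀).toMonoidHom, Cfsg.conjBlock Q' g₀ f'⟩ : Cfsg.BrauerPairIdx G)
    = ⟨_, f⟩
  rw [Helper77.conjBlock_eq_image, ← heq]

/-- **Brauer's height bound.**  For a maximal Brauer pair `(D, e₀)` of `B` with `|D| = p^d` and
`|Z(D)| = p^c`, every `χ ∈ B` satisfies `p^(c + h(χ)) ≤ [N_G(D, e₀) : D C_G(D)] p^d`. -/
theorem height_bound_core {p : ℕ} [Fact p.Prime] {M : Ideal Cfsg.AlgInt}
    (hM : Cfsg.IsPModular p M) {B : Set (Cfsg.IrrCharacter G)} {D : Subgroup G}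
    {e₀ : Set (Cfsg.IrrCharacter (Subgroup.centralizer (D : Set G)))}
    (hmax : Cfsg.IsMaximalBrauerPair p M B D e₀) (d : ℕ) (hDd : Nat.card D = p ^ d)
    (c : ℕ) (hc : Nat.card (Subgroup.center D) = p ^ c)
    (χ : Cfsg.IrrCharacter G) (hχ : χ ∈ B) :
    p ^ (c + Cfsg.blockHeight p B (χ : G → ℂ)) ≤
      (D ⊔ Subgroup.centralizer (D : Set G)).relIndex
        (Subgroup.normalizer (D : Set G) ⊓
          Helper77.stabSubgroup (Subgroup.centralizer (D : Set G)) e₀) * p ^ d := by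
  classical
  have hp : p.Prime := Fact.out
  have hMm := hM.2.1
  have hB : Cfsg.IsPBlock M B := hmax.1.2.1
  have hDp : IsPGroup p D := hmax.1.1.1
  have hdB : Cfsg.blockDefect p B = d := by
    have h1 := Helper77.card_of_isDefectGroup hM hB
      (Helper77.isDefectGroup_of_isMaximalBrauerPair hM B D e₀ hmax)
    rw [hDd] at h1
    exact (Nat.pow_right_injective hp.two_le h1).symm
  letI inst : ∀ K : Subgroup G, Fintype K := fun K => Fintype.ofFinite K
  have hpC : (p : ℂ) ^ d ≠ 0 := pow_ne_zero _ (by exact_mod_cast hp.ne_zero)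
  have hGpos : (0 : ℝ) < (Nat.card G : ℝ) := by exact_mod_cast Nat.card_pos
  -- notation
  obtain ⟨H, hH⟩ : ∃ H : Subgroup G, H = D ⊔ Subgroup.centralizer (D : Set G) := ⟨_, rfl⟩
  obtain ⟨T', hT'⟩ : ∃ T' : Subgroup G, T' = Subgroup.normalizer (D : Set G) ⊓
      Helper77.stabSubgroup (Subgroup.centralizer (D : Set G)) e₀ := ⟨_, rfl⟩
  rw [← hH, ← hT']
  have hRpos : 0 < H.relIndex T' := Nat.pos_of_ne_zero Subgroup.index_ne_zero_of_finite
  -- the subpairs
  obtain ⟨fQ, hfQ⟩ : ∃ fQ : ∀ Q : Subgroup G,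
      Set (Cfsg.IrrCharacter (Subgroup.centralizer (Q : Set G))),
      ∀ Q, Q ≤ D → Cfsg.IsPBlock M (fQ Q) ∧ Cfsg.SubpairLE p M Q (fQ Q) D e₀ := by
    refine ⟨fun Q => if hQ : Q ≤ D then
      Classical.choose (Helper77.exists_subpairLE hM D e₀ hmax.1.1 Q hQ) else ∅, fun Q hQ => ?_⟩
    simp only [dif_pos hQ]
    exact Classical.choose_spec (Helper77.exists_subpairLE hM D e₀ hmax.1.1 Q hQ)
  -- the centre of `D` inside `G`
  obtain ⟨Zs, hZs⟩ : ∃ Zs : Subgroup G, Zs = (Subgroup.center D).map D.subtype := ⟨_, rfl⟩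
  have hZfacts : ∀ z ∈ Zs, z ∈ D ∧ ∀ x ∈ D, x * z = z * x := by
    intro z hz
    rw [hZs] at hz
    obtain ⟨w, hw, rfl⟩ := hz
    refine ⟨w.2, fun x hx => ?_⟩
    have := Subgroup.mem_center_iff.mp hw ⟨x, hx⟩
    exact congrArg Subtype.val this
  have hfacts : ∀ z ∈ Zs,
      z ∈ Subgroup.centralizer ((Subgroup.zpowers z : Subgroup G) : Set G) ∧
      (∀ h : Subgroup.centralizer ((Subgroup.zpowers z : Subgroup G) : Set G),
        z * (h : G) = (h : G) * z) ∧
      (∀ g : G, z * g = g * z →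
        g ∈ Subgroup.centralizer ((Subgroup.zpowers z : Subgroup G) : Set G)) ∧
      (∃ k : ℕ, orderOf z = p ^ k) ∧
      Cfsg.IsPBlock M (fQ (Subgroup.zpowers z)) ∧
      Cfsg.blockDefect p (fQ (Subgroup.zpowers z)) = d ∧
      Cfsg.IsInducedBlock M (Subgroup.centralizer ((Subgroup.zpowers z : Subgroup G) : Set G))
        (fQ (Subgroup.zpowers z)) B ∧
      Cfsg.SubpairLE p M (Subgroup.zpowers z) (fQ (Subgroup.zpowers z)) D e₀ ∧
      D ≤ Subgroup.centralizer ((Subgroup.zpowers z : Subgroup G) : Set G) := by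
    intro z hz
    obtain ⟨hzD, hzc⟩ := hZfacts z hz
    obtain ⟨hQD, hDQ, hyH, hcent, hHC, hQC⟩ := zpowers_central_facts hzD hzc
    obtain ⟨hf, hle⟩ := hfQ _ hQD
    obtain ⟨-, hpair, hdef⟩ := blockDefect_of_subpair_central hM hmax hle hDQ
    refine ⟨hyH, hcent, hHC, ?_, hf, hdef.trans hdB,
      isInducedBlock_of_isBrauerPairOf_abelian hM hpair hQC, hle, hDQ⟩
    obtain ⟨k, hk⟩ := hDp ⟨z, hzD⟩
    have h1 : z ^ p ^ k = 1 := congrArg Subtype.val hk
    obtain ⟨j, -, hj⟩ := (Nat.dvd_prime_pow hp).mp (orderOf_dvd_of_pow_eq_one h1)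
    exact ⟨j, hj⟩
  obtain ⟨Z, hZ⟩ : ∃ Z : Finset G, Z = Finset.univ.filter (fun z => z ∈ Zs) := ⟨_, rfl⟩
  have hZmem : ∀ z, z ∈ Z ↔ z ∈ Zs := by
    intro z
    rw [hZ, Finset.mem_filter]
    simp
  have hZcard : Z.card = p ^ c := by
    rw [hZ, ← Fintype.card_subtype, ← Nat.card_eq_fintype_card, ← hc, hZs]
    exact Subgroup.card_map_of_injective (Subgroup.subtype_injective _)
  -- the contributions
  obtain ⟨m, hm⟩ : ∃ m : Subgroup G → G → ℂ, m = fun (Q : Subgroup G) (y : G) =>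
      contrib (Subgroup.centralizer (Q : Set G)) y (fQ Q) p d (χ : G → ℂ) (χ : G → ℂ) :=
    ⟨_, rfl⟩
  obtain ⟨ψ₀, hψ₀, hψ₀0⟩ := Helper16.exists_height_zero (p := p) hMm hB
  have hlow : (Z.card : ℝ) * (p : ℝ) ^ Cfsg.blockHeight p B (χ : G → ℂ)
      ≤ ∑ z ∈ Z, ‖m (Subgroup.zpowers z) z‖ := by
    subst hm
    refine card_mul_pow_le_sum_norm hM _ Z ?_ (fun z => contrib
      (Subgroup.centralizer ((Subgroup.zpowers z : Subgroup G) : Set G)) z
      (fQ (Subgroup.zpowers z)) p d (χ : G → ℂ) (χ : G → ℂ)) ?_ ?_ ?_ ?_ ?_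
    · intro z hz k
      rw [hZmem] at hz ⊢
      exact Subgroup.pow_mem _ hz k
    · intro σ k hk hσ z hz
      rw [hZmem] at hz
      obtain ⟨hyH, hcent, -⟩ := hfacts z hz
      have hzk : Subgroup.zpowers (z ^ k) = Subgroup.zpowers z :=
        zpowers_pow_eq_of_coprime z k hk
      show σ (contrib (Subgroup.centralizer ((Subgroup.zpowers z : Subgroup G) : Set G)) z
        (fQ (Subgroup.zpowers z)) p d (χ : G → ℂ) (χ : G → ℂ))
        = (fun (Q : Subgroup G) (y : G) => contrib (Subgroup.centralizer (Q : Set G)) y (fQ Q)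
          p d (χ : G → ℂ) (χ : G → ℂ)) (Subgroup.zpowers (z ^ k)) (z ^ k)
      rw [hzk]
      exact galois_contrib _ z hcent _ p d χ σ k hk hσ
    · intro z hz
      exact contrib_mem_cycField _ z _ p d χ χ
    · intro z hz
      rw [hZmem] at hz
      obtain ⟨hyH, hcent, hHC, hyp, hf, hdef, hind, -⟩ := hfacts z hz
      exact contrib_isIntegral _ hM z hyH hcent hyp hf hdef χ χ
    · intro z hz h0
      rw [hZmem] at hz
      obtain ⟨hyH, hcent, hHC, hyp, hf, hdef, hind, -⟩ := hfacts z hz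
      have h1 := contrib_eq_zero_of_self_eq_zero _ z (fQ (Subgroup.zpowers z)) p d hp.ne_zero
        (χ : G → ℂ) (ψ₀ : G → ℂ) h0
      have h2 : Cfsg.MemLocalIdeal M (contrib
          (Subgroup.centralizer ((Subgroup.zpowers z : Subgroup G) : Set G)) z
          (fQ (Subgroup.zpowers z)) p d (ψ₀ : G → ℂ) (χ : G → ℂ)
          / (p : ℂ) ^ Cfsg.blockHeight p B (χ : G → ℂ)) := by
        rw [h1, zero_div]
        exact Helper77.memLocalIdeal_zero hMm
      have h3 := contrib_div_memLocalIdeal _ hM z hyH hcent hHC hyp hf hB hdB ψ₀ hψ₀ hχ h2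
      rw [hψ₀0, pow_zero, div_one] at h3
      exact contrib_not_memLocalIdeal _ hM z hyH hcent hyp hind hdef hψ₀ hψ₀0 hψ₀ hψ₀0 h3
    · intro z hz
      rw [hZmem] at hz
      obtain ⟨hyH, hcent, hHC, hyp, hf, hdef, hind, -⟩ := hfacts z hz
      exact contrib_div_memLocalRing _ hM z hyH hcent hHC hyp hf hdB χ hχ
  -- the subsection parts
  obtain ⟨𝒜, h𝒜⟩ : ∃ 𝒜 : G → G → ℂ, 𝒜 = fun z =>
      secPart (Subgroup.centralizer ((Subgroup.zpowers z : Subgroup G) : Set G)) z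
        (fQ (Subgroup.zpowers z)) p (χ : G → ℂ) := ⟨_, rfl⟩
  have hHz : ∀ z ∈ Zs, ∀ h ∈ H, h * z = z * h := by
    intro z hz
    obtain ⟨hzD, hzc⟩ := hZfacts z hz
    have hle : H ≤ Subgroup.centralizer ({z} : Set G) := by
      rw [hH]
      refine sup_le (fun x hx => ?_) (fun x hx => ?_)
      · rw [Subgroup.mem_centralizer_iff]
        intro w hw
        rw [Set.mem_singleton_iff] at hw
        rw [hw]
        exact (hzc x hx).symm
      · rw [Subgroup.mem_centralizer_iff]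
        intro w hw
        rw [Set.mem_singleton_iff] at hw
        rw [hw]
        exact Subgroup.mem_centralizer_iff.mp hx z hzD
    intro h hh
    exact (Subgroup.mem_centralizer_iff.mp (hle hh) z rfl).symm
  have hsymm : ∀ i j : G, (∃ t ∈ T', t * i * t⁻¹ = j) → (∃ t ∈ T', t * j * t⁻¹ = i) := by
    rintro i j ⟨t, ht, rfl⟩
    exact ⟨t⁻¹, T'.inv_mem ht, by group⟩
  have hup := weighted_bessel Z 𝒜 (χ : G → ℂ) (H.relIndex T') hRpos
    (fun z z' => ∃ t ∈ T', t * z * t⁻¹ = z') hsymm ?_ ?_ ?_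
  rotate_left
  · -- h1
    intro z hz
    rw [hZmem] at hz
    obtain ⟨hyH, hcent, hHC, hyp, hf, hdef, hind, -⟩ := hfacts z hz
    subst h𝒜
    have h1 := sum_secPart_mul_conj _ hM z hyH hcent hf d χ χ
    have h2 := sum_secPart_mul_conj_self _ hM z hyH hcent hHC hyp (fQ (Subgroup.zpowers z)) d
      (χ : G → ℂ)
    exact mul_left_cancel₀ hpC (h1.trans h2.symm)
  · -- h2
    intro z hz z' hz' hrel
    rw [hZmem] at hz hz'
    obtain ⟨hyH, hcent, hHC, hyp, hf, hdef, hind, hle, hDQ⟩ := hfacts z hz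
    obtain ⟨hyH', hcent', hHC', hyp', hf', hdef', hind', hle', hDQ'⟩ := hfacts z' hz'
    subst h𝒜
    refine sum_secPart_mul_conj_eq_zero _ _ hM z' z hyH' hyH hcent' hcent hHC' hyp' hyp hf' hf
      ?_ (χ : G → ℂ)
    intro g₀ hg₀
    have hQ : (Subgroup.zpowers z').map (MulAut.conj g₀).toMonoidHom = Subgroup.zpowers z := by
      rw [MonoidHom.map_zpowers]
      congr 1
    refine exists_conjEquiv_of_conjPair_ne g₀ hQ _ _ ?_
    intro heq
    obtain ⟨c₀, hc₀, hn, hst⟩ := exists_stab_of_conjPair_central hM hmax hle' hle hDQ' hDQ g₀ heq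
    apply hrel
    apply hsymm
    refine ⟨c₀ * g₀, ?_, ?_⟩
    · rw [hT']
      exact ⟨hn, hst⟩
    · have h5 := Subgroup.mem_centralizer_iff.mp hc₀ z (Subgroup.mem_zpowers z)
      calc c₀ * g₀ * z' * (c₀ * g₀)⁻¹ = c₀ * (g₀ * z' * g₀⁻¹) * c₀⁻¹ := by group
        _ = c₀ * z * c₀⁻¹ := by rw [hg₀]
        _ = z * c₀ * c₀⁻¹ := by rw [h5]
        _ = z := by group
  · -- h3
    intro z hz s hs hrel
    rw [hZmem] at hz
    exact card_conj_le_relIndex H T' z (hHz z hz) s hrel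
  -- norms
  have hS : ∀ z ∈ Z, (Nat.card G : ℝ) * ‖m (Subgroup.zpowers z) z‖
      = (p : ℝ) ^ d * ∑ g : G, Complex.normSq (𝒜 z g) := by
    intro z hz
    rw [hZmem] at hz
    obtain ⟨hyH, hcent, hHC, hyp, -⟩ := hfacts z hz
    have h2 : ∑ g : G, 𝒜 z g * conj (𝒜 z g)
        = ((∑ g : G, Complex.normSq (𝒜 z g) : ℝ) : ℂ) := by
      rw [Complex.ofReal_sum]
      exact Finset.sum_congr rfl fun g _ => Complex.mul_conj _
    have hnn : (0 : ℝ) ≤ ∑ g : G, Complex.normSq (𝒜 z g) :=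
      Finset.sum_nonneg fun g _ => Complex.normSq_nonneg _
    subst h𝒜 hm
    have h1 := sum_secPart_mul_conj_self _ hM z hyH hcent hHC hyp (fQ (Subgroup.zpowers z)) d
      (χ : G → ℂ)
    rw [h2] at h1
    have h4 := congrArg norm h1
    rw [norm_mul, norm_mul, norm_pow, Complex.norm_natCast, Complex.norm_natCast,
      Complex.norm_real, Real.norm_of_nonneg hnn] at h4
    exact h4.symm
  have hχn : ∑ g : G, Complex.normSq ((χ : G → ℂ) g) = (Nat.card G : ℝ) := by
    have h1 := Helper3.classInner_irr χ χ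
    rw [if_pos rfl] at h1
    unfold Cfsg.classInner at h1
    have hG : (Nat.card G : ℂ) ≠ 0 := by exact_mod_cast Nat.card_pos.ne'
    have h2 : ∑ g : G, (χ : G → ℂ) g * conj ((χ : G → ℂ) g) = (Nat.card G : ℂ) := by
      rw [inv_mul_eq_iff_eq_mul₀ hG, mul_one] at h1
      exact h1
    have h3 : ∑ g : G, (χ : G → ℂ) g * conj ((χ : G → ℂ) g)
        = ((∑ g : G, Complex.normSq ((χ : G → ℂ) g) : ℝ) : ℂ) := by
      rw [Complex.ofReal_sum]
      exact Finset.sum_congr rfl fun g _ => Complex.mul_conj _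
    rw [h3] at h2
    exact_mod_cast h2
  rw [hχn] at hup
  have hfin : (Nat.card G : ℝ) * ((Z.card : ℝ) * (p : ℝ) ^ Cfsg.blockHeight p B (χ : G → ℂ))
      ≤ (Nat.card G : ℝ) * ((H.relIndex T' : ℝ) * (p : ℝ) ^ d) := by
    calc (Nat.card G : ℝ) * ((Z.card : ℝ) * (p : ℝ) ^ Cfsg.blockHeight p B (χ : G → ℂ))
        ≤ (Nat.card G : ℝ) * ∑ z ∈ Z, ‖m (Subgroup.zpowers z) z‖ :=
          mul_le_mul_of_nonneg_left hlow hGpos.le
      _ = ∑ z ∈ Z, (p : ℝ) ^ d * ∑ g : G, Complex.normSq (𝒜 z g) := by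
          rw [Finset.mul_sum]
          exact Finset.sum_congr rfl hS
      _ = (p : ℝ) ^ d * ∑ z ∈ Z, ∑ g : G, Complex.normSq (𝒜 z g) := by
          rw [Finset.mul_sum]
      _ ≤ (p : ℝ) ^ d * ((H.relIndex T' : ℝ) * (Nat.card G : ℝ)) :=
          mul_le_mul_of_nonneg_left hup (by positivity)
      _ = (Nat.card G : ℝ) * ((H.relIndex T' : ℝ) * (p : ℝ) ^ d) := by ring
  have hfin2 := le_of_mul_le_mul_left hfin hGpos
  rw [hZcard] at hfin2
  rw [pow_add]
  exact_mod_cast hfin2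

end Cfsg.Agent.Helper75
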