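import Cfsg.Agent.Helper77.AbelianPair
import Cfsg.Agent.Helper77.PairDefect
import Cfsg.Agent.Helper77.StableLift
import Cfsg.Agent.Helper16.BlockInd

/-!
# From a root block of `D C_G(D)` to a maximal Brauer pair

Let `B` be a block with defect group `D` and `b` a block of `H = D C_G(D)` inducing `B`.  Then
the idempotent of `b` is the idempotent of a block `e` of `C_G(D)`, `(D, e)` is a maximal Brauer
pair of `B`, and every element of `N_G(D)` stabilizing `e` stabilizes `b`.
-/

set_option autoImplicit false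
set_option linter.style.haveILetI false
open Cfsg
open scoped ComplexConjugate

namespace Cfsg.Agent.Helper75

universe u

variable {G : Type u} [Group G] [Fintype G]

omit [Fintype G] in
/-- Elements of a subgroup stabilize every set of irreducible characters of it. -/
theorem stabilizesBlock_of_mem_self (K : Subgroup G) (g : Set (Cfsg.IrrCharacter K)) {x : G}
    (hx : x ∈ K) : Cfsg.StabilizesBlock K g x := by
  refine ⟨Subgroup.le_normalizer hx, fun χ hχ => ⟨χ, hχ, ?_⟩⟩
  intro k k' hk
  have h2 : k' = (⟨x, hx⟩ : K) * k * (⟨x, hx⟩ : K)⁻¹ := Subtype.ext hk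
  rw [h2]
  exact Helper81.irr_conj χ k ⟨x, hx⟩

/-- The idempotent of a block of `D C_G(D)` is the idempotent of a block of `C_G(D)`. -/
theorem exists_block_below_root {p : ℕ} [Fact p.Prime] {M : Ideal Cfsg.AlgInt}
    (hM : Cfsg.IsPModular p M) (D : Subgroup G) (hD : IsPGroup p D) {H : Subgroup G}
    (hH : H = D ⊔ Subgroup.centralizer (D : Set G))
    {b : Set (Cfsg.IrrCharacter H)} (hb : Cfsg.IsPBlock M b) :
    ∃ e : Set (Cfsg.IrrCharacter (Subgroup.centralizer (D : Set G))), Cfsg.IsPBlock M e ∧
      ∀ t : H, Cfsg.blockCoeff b t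
        = Cfsg.subgroupBlockCoeff (Subgroup.centralizer (D : Set G)) e (t : G) := by
  classical
  have hMm := hM.2.1
  letI : Fintype H := Fintype.ofFinite _
  letI : Fintype (Subgroup.centralizer (D : Set G)) := Fintype.ofFinite _
  letI : Fintype (Cfsg.IrrCharacter (Subgroup.centralizer (D : Set G))) := Fintype.ofFinite _
  have hDH : D ≤ H := hH ▸ le_sup_left
  have hCH : Subgroup.centralizer (D : Set G) ≤ H := hH ▸ le_sup_right
  have hHN : H ≤ Subgroup.normalizer (D : Set G) :=
    hH ▸ sup_le Subgroup.le_normalizer (Subgroup.centralizer_le_normalizer _)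
  have hst : ∀ f : Set (Cfsg.IrrCharacter (Subgroup.centralizer (D : Set G))),
      ∀ x ∈ H, Cfsg.StabilizesBlock (Subgroup.centralizer (D : Set G)) f x := by
    intro f x hx
    have h1 : H ≤ Helper77.stabSubgroup (Subgroup.centralizer (D : Set G)) f :=
      hH ▸ sup_le (fun y hy => Helper77.stabilizesBlock_of_mem D f hy)
        (fun y hy => Helper77.stabilizesBlock_of_mem_centralizer D f hy)
    exact h1 hx
  have hex : ∀ f : Set (Cfsg.IrrCharacter (Subgroup.centralizer (D : Set G))),
      Cfsg.IsPBlock M f →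
      ∃ θ : Cfsg.IrrCharacter H, ∀ t : H,
        Cfsg.blockCoeff (Cfsg.blockOf M (θ : H → ℂ)) t
          = Cfsg.subgroupBlockCoeff (Subgroup.centralizer (D : Set G)) f (t : G) :=
    fun f hf => Helper77.exists_block_of_stabilizer hM D H hD hDH hCH hHN hf (hst f)
  obtain ⟨θ₁, hθ₁⟩ := Helper16.exists_mem_of_isPBlock hMm hb
  -- the block idempotents of `C` sum to the identity
  have hsum : ∀ t : H, (Helper81.deltaOne (1 : ℂ) : H → ℂ) t
      = ∑ f ∈ Finset.univ.filter
          (fun f : Set (Cfsg.IrrCharacter (Subgroup.centralizer (D : Set G))) =>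
            Cfsg.IsPBlock M f),
          Cfsg.subgroupBlockCoeff (Subgroup.centralizer (D : Set G)) f (t : G) := by
    intro t
    by_cases ht : (t : G) ∈ Subgroup.centralizer (D : Set G)
    · rw [Finset.sum_congr rfl (fun f _ => Helper77.sbc_of_mem _ f ht),
        Helper77.sum_blocks_blockCoeff hMm]
      unfold Helper81.deltaOne
      by_cases h1 : t = 1
      · rw [if_pos h1, if_pos]
        apply Subtype.ext
        have h3 : (t : G) = ((1 : H) : G) := congrArg Subtype.val h1
        exact h3
      · rw [if_neg h1, if_neg]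
        intro h2
        apply h1
        apply Subtype.ext
        have h3 : ((⟨(t : G), ht⟩ : Subgroup.centralizer (D : Set G)) : G)
            = ((1 : Subgroup.centralizer (D : Set G)) : G) := congrArg Subtype.val h2
        exact h3
    · rw [Finset.sum_eq_zero (fun f _ => Helper77.sbc_of_not_mem _ f ht)]
      unfold Helper81.deltaOne
      rw [if_neg]
      intro h
      apply ht
      rw [h]
      exact Subgroup.one_mem _
  by_contra hcon
  push Not at hcon
  -- every block of `C` gives a block of `H` not containing `θ₁`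
  have hzero : ∀ f ∈ Finset.univ.filter
      (fun f : Set (Cfsg.IrrCharacter (Subgroup.centralizer (D : Set G))) => Cfsg.IsPBlock M f),
      Helper81.omega (θ₁ : H → ℂ) (fun t : H =>
        Cfsg.subgroupBlockCoeff (Subgroup.centralizer (D : Set G)) f (t : G)) = 0 := by
    intro f hf
    rw [Finset.mem_filter] at hf
    obtain ⟨θ, hθ⟩ := hex f hf.2
    have e1 : (fun t : H =>
        Cfsg.subgroupBlockCoeff (Subgroup.centralizer (D : Set G)) f (t : G))
        = Cfsg.blockCoeff (Cfsg.blockOf M (θ : H → ℂ)) := funext fun t => (hθ t).symm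
    rw [e1]
    apply Helper77.omega_blockCoeff_of_not_mem
    intro hmem
    have hbeq : b = Cfsg.blockOf M (θ : H → ℂ) :=
      Helper77.block_eq_of_mem hMm hb ⟨θ, rfl⟩ hθ₁ hmem
    obtain ⟨t, ht⟩ := hcon f hf.2
    apply ht
    rw [hbeq]
    exact hθ t
  have h1 : Helper81.omega (θ₁ : H → ℂ) (Helper81.deltaOne (1 : ℂ)) = 1 :=
    Helper81.omega_deltaOne θ₁ 1
  have h2 : Helper81.omega (θ₁ : H → ℂ) (Helper81.deltaOne (1 : ℂ))
      = ∑ f ∈ Finset.univ.filter
          (fun f : Set (Cfsg.IrrCharacter (Subgroup.centralizer (D : Set G))) =>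
            Cfsg.IsPBlock M f),
        Helper81.omega (θ₁ : H → ℂ) (fun t : H =>
          Cfsg.subgroupBlockCoeff (Subgroup.centralizer (D : Set G)) f (t : G)) := by
    unfold Helper81.omega
    rw [← Finset.sum_div]
    congr 1
    rw [Finset.sum_comm]
    refine Finset.sum_congr rfl fun t _ => ?_
    rw [hsum t, Finset.sum_mul]
  rw [h2, Finset.sum_eq_zero hzero] at h1
  exact zero_ne_one h1

/-- **Root block to maximal Brauer pair.**  If the block `b` of `H = D C_G(D)` induces the block
`B` with defect group `D`, there is a maximal Brauer pair `(D, e)` of `B` such that every element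
of `N_G(D)` stabilizing `e` stabilizes `b`. -/
theorem exists_maxPair_of_root {p : ℕ} [Fact p.Prime] {M : Ideal Cfsg.AlgInt}
    (hM : Cfsg.IsPModular p M) {B : Set (Cfsg.IrrCharacter G)} (D : Subgroup G)
    (hBD : Cfsg.IsDefectGroup p M B D) {H : Subgroup G}
    (hH : H = D ⊔ Subgroup.centralizer (D : Set G))
    {b : Set (Cfsg.IrrCharacter H)} (hind : Cfsg.IsInducedBlock M H b B) :
    ∃ e : Set (Cfsg.IrrCharacter (Subgroup.centralizer (D : Set G))),
      Cfsg.IsMaximalBrauerPair p M B D e ∧
      ∀ t : G, t ∈ Subgroup.normalizer (D : Set G) →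
        Cfsg.StabilizesBlock (Subgroup.centralizer (D : Set G)) e t →
        ∀ θ ∈ b, ∀ θ' : Cfsg.IrrCharacter H,
          (∀ h h' : H, (h' : G) = t * h * t⁻¹ → (θ' : H → ℂ) h' = (θ : H → ℂ) h) → θ' ∈ b := by
  classical
  have hMm := hM.2.1
  have hb := hind.1
  have hB := hind.2.1
  letI : Fintype H := Fintype.ofFinite _
  letI : Fintype (Subgroup.centralizer (D : Set G)) := Fintype.ofFinite _
  have hDH : D ≤ H := hH ▸ le_sup_left
  have hCH : Subgroup.centralizer (D : Set G) ≤ H := hH ▸ le_sup_right
  have hHN : H ≤ Subgroup.normalizer (D : Set G) :=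
    hH ▸ sup_le Subgroup.le_normalizer (Subgroup.centralizer_le_normalizer _)
  have hD : IsPGroup p D := IsPGroup.of_card (Helper77.card_of_isDefectGroup hM hB hBD)
  obtain ⟨e, he, hcoef⟩ := exists_block_below_root hM D hD hH hb
  have hpair : Cfsg.IsBrauerPairOf p M B D e := by
    refine ⟨⟨hD, he⟩, hB, fun ξ hξ => ?_⟩
    obtain ⟨η, hη⟩ := Helper16.exists_mem_of_isPBlock hMm hb
    have hξ' : Cfsg.MemLocalIdeal M
        (Cfsg.brauerOmega D (Cfsg.subgroupBlockCoeff H b) (ξ : _ → ℂ) - 1) := by
      rw [Helper77.brauerOmega_eq_restrict]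
      have e1 : (fun c : Subgroup.centralizer (D : Set G) =>
          Cfsg.subgroupBlockCoeff H b (c : G)) = Cfsg.blockCoeff e := by
        funext c
        rw [Helper77.sbc_of_mem H b (hCH c.2), hcoef ⟨(c : G), hCH c.2⟩,
          Helper77.sbc_of_mem _ e c.2]
      rw [e1, Helper77.omega_blockCoeff_of_mem hξ, sub_self]
      exact Helper77.memLocalIdeal_zero hMm
    have hcl := Helper77.blockCoeff_isClassFunction B
    have h1 := Helper77.brauerOmega_sub_omega_memLocalIdeal hM D H hD hCH ξ b hb
      (fun x hx => stabilizesBlock_of_mem_self H b (hDH hx)) hξ'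
      (a := Helper77.truncTo H (Cfsg.blockCoeff B)) (Helper77.suppIn_truncTo H _)
      (Helper77.invUnder_truncTo Subgroup.le_normalizer
        (Helper77.invUnder_of_isClassFunction hcl H))
      (Helper77.invUnder_truncTo (hDH.trans Subgroup.le_normalizer)
        (Helper77.invUnder_of_isClassFunction hcl D))
      (Helper77.truncTo_memLocalRing hMm H (Helper77.blockCoeff_memLocalRing hMm hB)) η hη
    have h2 := Helper16.omega_res_blockCoeff_sub_one hMm H hind hη
    have e2 : Cfsg.brauerOmega D (Helper77.truncTo H (Cfsg.blockCoeff B)) (ξ : _ → ℂ)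
        = Cfsg.brauerOmega D (Cfsg.blockCoeff B) (ξ : _ → ℂ) := by
      rw [Helper77.brauerOmega_eq_restrict, Helper77.brauerOmega_eq_restrict]
      congr 1
      funext c
      exact Helper77.truncTo_of_mem H _ (hCH c.2)
    rw [e2, Helper77.truncTo_restrict] at h1
    have h3 := Helper77.memLocalIdeal_add hMm h1 h2
    rwa [sub_add_sub_cancel] at h3
  refine ⟨e, Helper77.isMaximalBrauerPair_of_card_eq hM hpair hBD rfl, ?_⟩
  intro t htN hst θ hθ θ' hconj
  by_contra hθ'
  have hz := Helper77.omega_blockCoeff_of_not_mem hθ'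
  have ho := Helper77.omega_blockCoeff_of_mem hθ
  -- `t` normalizes `H`
  have htH : t ∈ Subgroup.normalizer (H : Set G) := by
    rw [← Helper77.map_conj_eq_self_iff, hH, Subgroup.map_sup,
      (Helper77.map_conj_eq_self_iff D t).2 htN,
      (Helper77.map_conj_eq_self_iff (Subgroup.centralizer (D : Set G)) t).2 hst.1]
  have hone : (θ' : H → ℂ) 1 = (θ : H → ℂ) 1 := by
    apply hconj 1 1
    simp
  apply zero_ne_one (α := ℂ)
  rw [← hz, ← ho]
  unfold Helper81.omega
  rw [hone]
  congr 1
  rw [← Equiv.sum_comp (conjEquivOfNormalizer H t htH).symm.toEquiv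
    (fun h' : H => Cfsg.blockCoeff b h' * (θ' : H → ℂ) h')]
  refine Finset.sum_congr rfl fun h _ => ?_
  have hval : (((conjEquivOfNormalizer H t htH).symm.toEquiv h : H) : G) = t * (h : G) * t⁻¹ := rfl
  rw [hconj h _ hval, hcoef, hval, Helper77.subgroupBlockCoeff_conj_of_stabilizes _ e hst, hcoef]

end Cfsg.Agent.Helper75
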