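import Mathlib
import Cfsg.Agent.Helper96.OHDefs

set_option autoImplicit false

/-!
# Involutions of orthogonal groups in characteristic 2: invariant planes and 4-spaces (helper75)

`T` an isometry of the nondegenerate quadratic form `Q` with `T ^ 2 = 1`, `2 = 0` in `F`, `K` a
`T`-invariant nondegenerate subspace.  Then `T = 1` on `K`, or `K` contains a `T`-invariant
nondegenerate plane `⟨v, T v⟩`, or a `T`-invariant nondegenerate `4`-space of plus type.
No classification of involutions is used.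
-/

namespace Cfsg.Agent.Helper75.P2

open Module Cfsg Cfsg.Geo Cfsg.Agent.Helper96.OH

variable {ι : Type} [Fintype ι] [DecidableEq ι] {F : Type*} [Field F]

theorem p2_neg (h2 : (2 : F) = 0) (x : ι → F) : -x = x := by
  have h : x + x = 0 := by rw [← two_smul F x, h2, zero_smul]
  exact neg_eq_of_add_eq_zero_left h

theorem p2_mem4 {V : Type*} [AddCommGroup V] [Module F V] (a b c d x : V) :
    x ∈ Submodule.span F ({a, b, c, d} : Set V) ↔
      ∃ α β γ δ : F, x = α • a + β • b + γ • c + δ • d := by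
  simp only [Submodule.mem_span_insert, Submodule.mem_span_singleton]
  constructor
  · rintro ⟨α, _, ⟨β, _, ⟨γ, _, ⟨δ, rfl⟩, rfl⟩, rfl⟩, rfl⟩
    exact ⟨α, β, γ, δ, by rw [add_assoc, add_assoc]⟩
  · rintro ⟨α, β, γ, δ, rfl⟩
    exact ⟨α, _, ⟨β, _, ⟨γ, _, ⟨δ, rfl⟩, rfl⟩, rfl⟩, by rw [add_assoc, add_assoc]⟩

/-- the plane `⟨v, T v⟩` when `polar v (T v) ≠ 0`. -/
theorem p2_plane (Q : (ι → F) → F) (hQ : IsNondegenerateQuadraticForm Q) (h2 : (2 : F) = 0)
    (T : Module.End F (ι → F)) (hT : OPres Q T) (hT2 : T ^ 2 = 1)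
    (K : Submodule F (ι → F)) (hKT : K.map T ≤ K) (v : ι → F) (hvK : v ∈ K)
    (hv : QuadraticMap.polar Q v (T v) ≠ 0) :
    ∃ P : Submodule F (ι → F), P ≤ K ∧ P.map T ≤ P ∧ ONd Q P ∧ finrank F P = 2 := by
  classical
  obtain ⟨B, hB⟩ : ∃ B : LinearMap.BilinForm F (ι → F), B = pB Q hQ := ⟨_, rfl⟩
  have hBp : ∀ x y, B x y = QuadraticMap.polar Q x y := fun x y => by rw [hB]; rfl
  have hBs : ∀ x, B x x = 0 := by intro x; rw [hB, pB_self, h2, zero_mul]
  have hBc : ∀ x y, B x y = B y x := by rw [hB]; exact pB_comm Q hQ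
  have hTT : ∀ x, T (T x) = x := by
    intro x
    have h := congrArg (fun S : Module.End F (ι → F) => S x) hT2
    simpa [pow_two] using h
  have hb : B v (T v) ≠ 0 := by rw [hBp]; exact hv
  have hmem : ∀ u, u ∈ Submodule.span F {v, T v} ↔ ∃ α β : F, α • v + β • T v = u :=
    fun u => Submodule.mem_span_pair
  have key : ∀ α β : F, B (α • v + β • T v) v = 0 → B (α • v + β • T v) (T v) = 0 →
      α = 0 ∧ β = 0 := by
    intro α β h1 h2'
    simp only [map_add, map_smul, LinearMap.add_apply, LinearMap.smul_apply, smul_eq_mul]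
      at h1 h2'
    rw [hBs v, hBc (T v) v, mul_zero, zero_add] at h1
    rw [hBs (T v), mul_zero, add_zero] at h2'
    exact ⟨(mul_eq_zero.mp h2').resolve_right hb, (mul_eq_zero.mp h1).resolve_right hb⟩
  refine ⟨Submodule.span F {v, T v}, ?_, ?_, ?_, ?_⟩
  · rw [Submodule.span_le]
    intro x hx
    rcases hx with rfl | hx
    · exact hvK
    · rw [Set.mem_singleton_iff] at hx
      rw [hx]
      exact hKT ⟨v, hvK, rfl⟩
  · rintro _ ⟨u, hu, rfl⟩
    obtain ⟨α, β, rfl⟩ := (hmem u).mp hu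
    rw [map_add, map_smul, map_smul, hTT]
    exact (hmem _).mpr ⟨β, α, by rw [add_comm]⟩
  · have key2 : ∀ u ∈ Submodule.span F {v, T v}, u ≠ 0 →
        ∃ x ∈ Submodule.span F {v, T v}, B u x ≠ 0 := by
      intro u hu hu0
      obtain ⟨α, β, rfl⟩ := (hmem u).mp hu
      by_contra hcon
      push Not at hcon
      obtain ⟨hα, hβ⟩ := key α β (hcon v (Submodule.subset_span (by simp)))
        (hcon (T v) (Submodule.subset_span (by simp)))
      apply hu0
      rw [hα, hβ, zero_smul, zero_smul, add_zero]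
    intro u hu hu0
    obtain ⟨x, hx, hne⟩ := key2 u hu hu0
    exact ⟨⟨x, hx, by rw [← hBp, hBc]; exact hne⟩, ⟨x, hx, by rw [← hBp]; exact hne⟩⟩
  · have hli : LinearIndependent F ![v, T v] := by
      rw [LinearIndependent.pair_iff]
      intro α β h
      refine key α β ?_ ?_
      · rw [h]; simp
      · rw [h]; simp
    have h3 := finrank_span_eq_card hli
    rw [Fintype.card_fin] at h3
    have hr : Set.range ![v, T v] = {v, T v} := by
      simp only [Matrix.range_cons, Matrix.range_empty, Set.union_empty, Set.singleton_union]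
    rw [hr] at h3
    exact h3

/-- the hyperbolic `4`-space `⟨v, n, w, n'⟩` (`n = T v - v`, `n' = T w - w`) when
`polar x (T x) = 0` on `K`. -/
theorem p2_apiece (Q : (ι → F) → F) (hQ : IsNondegenerateQuadraticForm Q) (h2 : (2 : F) = 0)
    (T : Module.End F (ι → F)) (hT : OPres Q T) (hT2 : T ^ 2 = 1)
    (K : Submodule F (ι → F)) (hK : ONd Q K) (hKT : K.map T ≤ K)
    (ha : ∀ v ∈ K, QuadraticMap.polar Q v (T v) = 0) (v : ι → F) (hv : v ∈ K)
    (hTv : T v ≠ v) :
    ∃ A : Submodule F (ι → F), A ≤ K ∧ A.map T ≤ A ∧ ONd Q A ∧ OPl Q A ∧ finrank F A = 4 := by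
  classical
  obtain ⟨B, hB⟩ : ∃ B : LinearMap.BilinForm F (ι → F), B = pB Q hQ := ⟨_, rfl⟩
  have hBp : ∀ x y, B x y = QuadraticMap.polar Q x y := fun x y => by rw [hB]; rfl
  have hBT : ∀ x y, B (T x) (T y) = B x y := by rw [hB]; exact upres_of Q hQ T hT
  have hBs : ∀ x, B x x = 0 := by intro x; rw [hB, pB_self, h2, zero_mul]
  have hBc : ∀ x y, B x y = B y x := by rw [hB]; exact pB_comm Q hQ
  have hTT : ∀ x, T (T x) = x := by
    intro x
    have h := congrArg (fun S : Module.End F (ι → F) => S x) hT2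
    simpa [pow_two] using h
  have hneg : ∀ x : ι → F, -x = x := p2_neg h2
  have hTK : ∀ x ∈ K, T x ∈ K := fun x hx => hKT ⟨x, hx, rfl⟩
  have haB : ∀ x ∈ K, B x (T x) = 0 := fun x hx => by rw [hBp]; exact ha x hx
  obtain ⟨n, hn⟩ : ∃ n, n = T v - v := ⟨_, rfl⟩
  have hn0 : n ≠ 0 := by rw [hn]; exact sub_ne_zero.mpr hTv
  have hnK : n ∈ K := by rw [hn]; exact K.sub_mem (hTK v hv) hv
  have hTn : T n = n := by rw [hn, map_sub, hTT, ← neg_sub, hneg]
  obtain ⟨-, w, hw, hnw⟩ := hK n hnK hn0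
  obtain ⟨n', hn'⟩ : ∃ n', n' = T w - w := ⟨_, rfl⟩
  have hn'K : n' ∈ K := by rw [hn']; exact K.sub_mem (hTK w hw) hw
  have hTn' : T n' = n' := by rw [hn', map_sub, hTT, ← neg_sub, hneg]
  obtain ⟨a, ha'⟩ : ∃ a, a = B n w := ⟨_, rfl⟩
  have ha0 : a ≠ 0 := by rw [ha', hBp]; exact hnw
  have e_vn : B v n = 0 := by rw [hn, map_sub, haB v hv, hBs, sub_zero]
  have e_wn' : B w n' = 0 := by rw [hn', map_sub, haB w hw, hBs, sub_zero]
  have e_nn' : B n n' = 0 := by
    rw [hn', map_sub]
    have h1 : B n (T w) = B n w := by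
      have h := hBT n (T w)
      rw [hTn, hTT] at h
      exact h.symm
    rw [h1, sub_self]
  have e_vn' : B v n' = a := by
    rw [hn', map_sub]
    have h1 : B v (T w) = B (T v) w := by
      have h := hBT v (T w)
      rw [hTT] at h
      exact h.symm
    rw [h1, ha', hn, map_sub, LinearMap.sub_apply]
  have e_nw : B n w = a := ha'.symm
  have comb : ∀ α β γ δ : F,
      B (α • v + β • n + γ • w + δ • n') n' = 0 → B (α • v + β • n + γ • w + δ • n') n = 0 →
      B (α • v + β • n + γ • w + δ • n') w = 0 → B (α • v + β • n + γ • w + δ • n') v = 0 →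
      α = 0 ∧ β = 0 ∧ γ = 0 ∧ δ = 0 := by
    intro α β γ δ h1 h2' h3 h4
    simp only [map_add, map_smul, LinearMap.add_apply, LinearMap.smul_apply, smul_eq_mul]
      at h1 h2' h3 h4
    rw [e_vn', e_nn', e_wn', hBs n'] at h1
    rw [e_vn, hBs n, hBc w n, e_nw, hBc n' n, e_nn'] at h2'
    rw [e_nw, hBs w, hBc n' w, e_wn'] at h3
    rw [hBs v, hBc n v, e_vn, hBc n' v, e_vn'] at h4
    have hα : α = 0 := by simpa [ha0] using h1
    have hγ : γ = 0 := by simpa [ha0] using h2'
    rw [hα, hγ] at h3 h4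
    have hβ : β = 0 := by simpa [ha0] using h3
    have hδ : δ = 0 := by simpa [ha0] using h4
    exact ⟨hα, hβ, hγ, hδ⟩
  have hQn : Q n = 0 := by
    have h1 : T v = n + v := by rw [hn]; abel
    have h3 := hT v
    rw [h1, q_add Q, ← hBp, hBc, e_vn, add_zero] at h3
    linear_combination h3
  have hQn' : Q n' = 0 := by
    have h1 : T w = n' + w := by rw [hn']; abel
    have h3 := hT w
    rw [h1, q_add Q, ← hBp, hBc, e_wn', add_zero] at h3
    linear_combination h3
  have hgen : ∀ x ∈ ({v, n, w, n'} : Set (ι → F)), x ∈ K := by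
    intro x hx
    simp only [Set.mem_insert_iff, Set.mem_singleton_iff] at hx
    rcases hx with rfl | rfl | rfl | rfl
    · exact hv
    · exact hnK
    · exact hw
    · exact hn'K
  have hAv : v ∈ Submodule.span F ({v, n, w, n'} : Set (ι → F)) :=
    Submodule.subset_span (by simp)
  have hAn : n ∈ Submodule.span F ({v, n, w, n'} : Set (ι → F)) :=
    Submodule.subset_span (by simp)
  have hAw : w ∈ Submodule.span F ({v, n, w, n'} : Set (ι → F)) :=
    Submodule.subset_span (by simp)
  have hAn' : n' ∈ Submodule.span F ({v, n, w, n'} : Set (ι → F)) :=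
    Submodule.subset_span (by simp)
  have hli : LinearIndependent F ![v, n, w, n'] := by
    rw [Fintype.linearIndependent_iff]
    intro c hc
    rw [Fin.sum_univ_four] at hc
    change c 0 • v + c 1 • n + c 2 • w + c 3 • n' = 0 at hc
    obtain ⟨h0, h1, h2', h3⟩ := comb (c 0) (c 1) (c 2) (c 3) (by rw [hc]; simp)
      (by rw [hc]; simp) (by rw [hc]; simp) (by rw [hc]; simp)
    intro i
    fin_cases i
    · exact h0
    · exact h1
    · exact h2'
    · exact h3
  refine ⟨Submodule.span F ({v, n, w, n'} : Set (ι → F)), Submodule.span_le.mpr hgen, ?_, ?_,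
    ?_, ?_⟩
  · rw [Submodule.map_span_le]
    intro x hx
    simp only [Set.mem_insert_iff, Set.mem_singleton_iff] at hx
    rcases hx with rfl | rfl | rfl | rfl
    · have h1 : T x = n + x := by rw [hn]; abel
      rw [h1]
      exact Submodule.add_mem _ hAn hAv
    · rw [hTn]; exact hAn
    · have h1 : T x = n' + x := by rw [hn']; abel
      rw [h1]
      exact Submodule.add_mem _ hAn' hAw
    · rw [hTn']; exact hAn'
  · have key2 : ∀ u ∈ Submodule.span F ({v, n, w, n'} : Set (ι → F)), u ≠ 0 →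
        ∃ x ∈ Submodule.span F ({v, n, w, n'} : Set (ι → F)), B u x ≠ 0 := by
      intro u hu hu0
      obtain ⟨α, β, γ, δ, rfl⟩ := (p2_mem4 v n w n' u).mp hu
      by_contra hcon
      push Not at hcon
      obtain ⟨hα, hβ, hγ, hδ⟩ := comb α β γ δ (hcon n' hAn') (hcon n hAn) (hcon w hAw)
        (hcon v hAv)
      apply hu0
      rw [hα, hβ, hγ, hδ, zero_smul, zero_smul, zero_smul, zero_smul, add_zero, add_zero,
        add_zero]
    intro u hu hu0
    obtain ⟨x, hx, hne⟩ := key2 u hu hu0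
    exact ⟨⟨x, hx, by rw [← hBp, hBc]; exact hne⟩, ⟨x, hx, by rw [← hBp]; exact hne⟩⟩
  · have hli2 : LinearIndependent F ![n, n'] := by
      rw [LinearIndependent.pair_iff]
      intro β δ h
      have h5 : (0 : F) • v + β • n + (0 : F) • w + δ • n' = 0 := by
        rw [zero_smul, zero_smul, zero_add, add_zero]
        exact h
      obtain ⟨-, h1, -, h3⟩ := comb 0 β 0 δ (by rw [h5]; simp) (by rw [h5]; simp)
        (by rw [h5]; simp) (by rw [h5]; simp)
      exact ⟨h1, h3⟩
    have h3 := finrank_span_eq_card hli2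
    rw [Fintype.card_fin] at h3
    have hr : Set.range ![n, n'] = {n, n'} := by
      simp only [Matrix.range_cons, Matrix.range_empty, Set.union_empty, Set.singleton_union]
    rw [hr] at h3
    have h4 := finrank_span_eq_card hli
    rw [Fintype.card_fin] at h4
    have hr4 : Set.range ![v, n, w, n'] = {v, n, w, n'} := by
      simp only [Matrix.range_cons, Matrix.range_empty, Set.union_empty, Set.singleton_union]
    rw [hr4] at h4
    refine ⟨Submodule.span F {n, n'}, ?_, ?_, by rw [h3, h4]⟩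
    · rw [Submodule.span_le]
      intro x hx
      simp only [Set.mem_insert_iff, Set.mem_singleton_iff] at hx
      rcases hx with rfl | rfl
      · exact hAn
      · exact hAn'
    · intro u hu
      obtain ⟨β, δ, rfl⟩ := Submodule.mem_span_pair.mp hu
      rw [q_add Q, hQ.smul, hQ.smul, hQn, hQn', ← hBp]
      simp only [map_smul, LinearMap.smul_apply, smul_eq_mul]
      rw [e_nn']
      ring
  · have h4 := finrank_span_eq_card hli
    rw [Fintype.card_fin] at h4
    have hr4 : Set.range ![v, n, w, n'] = {v, n, w, n'} := by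
      simp only [Matrix.range_cons, Matrix.range_empty, Set.union_empty, Set.singleton_union]
    rw [hr4] at h4
    exact h4

/-- the trichotomy. -/
theorem p2_piece (Q : (ι → F) → F) (hQ : IsNondegenerateQuadraticForm Q) (h2 : (2 : F) = 0)
    (T : Module.End F (ι → F)) (hT : OPres Q T) (hT2 : T ^ 2 = 1)
    (K : Submodule F (ι → F)) (hK : ONd Q K) (hKT : K.map T ≤ K) :
    (∀ v ∈ K, T v = v) ∨
    (∃ P : Submodule F (ι → F), P ≤ K ∧ P.map T ≤ P ∧ ONd Q P ∧ finrank F P = 2) ∨
    (∃ A : Submodule F (ι → F), A ≤ K ∧ A.map T ≤ A ∧ ONd Q A ∧ OPl Q A ∧ finrank F A = 4) := by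
  by_cases h1 : ∀ v ∈ K, T v = v
  · exact Or.inl h1
  · right
    push Not at h1
    obtain ⟨v, hv, hTv⟩ := h1
    by_cases hb : ∃ u ∈ K, QuadraticMap.polar Q u (T u) ≠ 0
    · obtain ⟨u, hu, hne⟩ := hb
      exact Or.inl (p2_plane Q hQ h2 T hT hT2 K hKT u hu hne)
    · push Not at hb
      exact Or.inr (p2_apiece Q hQ h2 T hT hT2 K hK hKT hb v hv hTv)

end Cfsg.Agent.Helper75.P2
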