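import Mathlib
import Cfsg.Agent.Helper8.S4504Defs
import Cfsg.Agent.Helper14.S4504BDefs
import Cfsg.Agent.Helper76.CentralChar

/-!
# S4504, sub-call S4504B (helper14), piece LAM: the central character of an irreducible character
-/

set_option autoImplicit false
open Cfsg Cfsg.Agent.Helper8 Cfsg.Agent.Helper14.S4504B
open scoped ComplexConjugate

universe u

namespace Cfsg.Agent.Helper75.S4504BLAM

theorem s4504b_lam {H : Type u} [Group H] [Finite H] (χ : Cfsg.IrrCharacter H) :
    (∀ z w : Subgroup.center H,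
      lam (χ : H → ℂ) (z * w) = lam (χ : H → ℂ) z * lam (χ : H → ℂ) w) ∧
    (∀ z : Subgroup.center H, lam (χ : H → ℂ) z * conj (lam (χ : H → ℂ) z) = 1) ∧
    (∀ z : Subgroup.center H, ‖lam (χ : H → ℂ) z‖ = 1) ∧
    (∀ (z : Subgroup.center H) (g : H),
      (χ : H → ℂ) (g * (z : H)) = lam (χ : H → ℂ) z * (χ : H → ℂ) g) := by
  have h1 : (χ : H → ℂ) 1 ≠ 0 := Cfsg.Agent.Helper76.irr_one_ne_zero χ
  obtain ⟨c, hc⟩ := Cfsg.Agent.Helper76.exists_central_scalar (Subgroup.center H).subtype
    (fun z => z.2) χ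
  have hlam : ∀ z : Subgroup.center H, lam (χ : H → ℂ) z = c z := by
    intro z
    have h := hc z 1
    rw [one_mul] at h
    unfold lam
    rw [show ((z : H)) = (Subgroup.center H).subtype z from rfl, h]
    field_simp
  obtain ⟨hc1, hcm⟩ := Cfsg.Agent.Helper76.scalar_mul (Subgroup.center H).subtype
    (χ : H → ℂ) h1 c hc
  have hn := Cfsg.Agent.Helper76.scalar_norm c hc1 hcm
  refine ⟨?_, ?_, ?_, ?_⟩
  · intro z w
    rw [hlam, hlam, hlam, hcm]
  · intro z
    rw [hlam]
    exact hn z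
  · intro z
    rw [hlam]
    have h := hn z
    rw [Complex.mul_conj'] at h
    have h2 : ‖c z‖ ^ 2 = 1 := by exact_mod_cast h
    exact (pow_eq_one_iff_of_nonneg (norm_nonneg _) two_ne_zero).mp h2
  · intro z g
    rw [hlam]
    exact hc z g

end Cfsg.Agent.Helper75.S4504BLAM
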