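import Mathlib
import Cfsg.Agent.Helper8.S4504Defs
import Cfsg.Agent.Helper15.B42Defs

/-!
# S4504, sub-call S4504S (helper15), piece PVD: the square of the difference of the two
Gaussian periods is `(-1)^|F| p` (via Mathlib's `gaussSum_sq` for the quadratic character of the
index-two subgroup `F` of `(ZMod p)ˣ`).
-/

universe u
set_option autoImplicit false
open Cfsg Cfsg.Agent.Helper77 Cfsg.Agent.Helper15 Cfsg.Agent.Helper8
open scoped ComplexConjugate

namespace Cfsg.Agent.Helper75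

/-- The difference of the two periods of an index-two subgroup `F` of `(ZMod p)ˣ` squares to
`(-1)^|F| p`. -/
theorem pvd_gauss (p : ℕ) [Fact p.Prime] (F : Subgroup (ZMod p)ˣ)
    (hcard : 2 * Nat.card F + 1 = p) (v : (ZMod p)ˣ) (hv : v ∉ F) (ζ : ℂ)
    (hζ : IsPrimitiveRoot ζ p) (c : ZMod p) (hc : c ≠ 0)
    (Fs : Finset (ZMod p)ˣ) (hFs : ∀ s, s ∈ Fs ↔ s ∈ F) :
    (∑ s ∈ Fs, ζ ^ (((s : (ZMod p)ˣ) : ZMod p) * c).val
      - ∑ s ∈ Fs, ζ ^ (((v : ZMod p) * ((s : (ZMod p)ˣ) : ZMod p)) * c).val) ^ 2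
      = (-1) ^ Nat.card F * (p : ℂ) := by
  classical
  have hp : p.Prime := Fact.out
  haveI : NeZero p := ⟨hp.ne_zero⟩
  have hFpos : 0 < Nat.card F := Nat.card_pos
  have hp3 : 3 ≤ p := by omega
  -- index two
  have hidx : F.index = 2 := by
    have h1 := F.index_mul_card
    rw [Nat.card_eq_fintype_card (α := (ZMod p)ˣ), ZMod.card_units p] at h1
    have h2 : F.index * Nat.card F = 2 * Nat.card F := by omega
    exact Nat.eq_of_mul_eq_mul_right hFpos h2
  -- the sign homomorphism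
  obtain ⟨εh, hεh⟩ : ∃ εh : (ZMod p)ˣ →* ℂˣ, ∀ u, εh u = if u ∈ F then 1 else -1 :=
    ⟨{ toFun := fun u => if u ∈ F then 1 else -1
       map_one' := by simp [F.one_mem]
       map_mul' := by
        intro a b
        by_cases ha : a ∈ F <;> by_cases hb : b ∈ F
        · simp [ha, hb, F.mul_mem ha hb]
        · have hab : a * b ∉ F := fun h => hb ((Subgroup.mul_mem_cancel_left F ha).mp h)
          simp [ha, hb, hab]
        · have hab : a * b ∉ F := fun h => ha ((Subgroup.mul_mem_cancel_right F hb).mp h)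
          simp [ha, hb, hab]
        · have hab : a * b ∈ F := (Subgroup.mul_mem_iff_of_index_two hidx).mpr
            ⟨fun h => absurd h ha, fun h => absurd h hb⟩
          simp [ha, hb, hab] }, fun u => rfl⟩
  obtain ⟨χF, hχu⟩ : ∃ χF : MulChar (ZMod p) ℂ,
      ∀ u : (ZMod p)ˣ, χF (u : ZMod p) = if u ∈ F then 1 else -1 :=
    ⟨MulChar.ofUnitHom εh, fun u => by
      rw [MulChar.ofUnitHom_coe, hεh]
      split_ifs <;> simp⟩
  have hquad : χF.IsQuadratic := by
    intro a
    by_cases ha : a = 0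
    · left
      rw [ha]
      exact MulChar.map_zero χF
    · right
      rw [← Units.val_mk0 ha, hχu]
      split_ifs
      · left; rfl
      · right; rfl
  have hne1 : χF ≠ 1 := by
    intro h
    have h' := hχu v
    rw [h, MulChar.one_apply_coe, if_neg hv] at h'
    norm_num at h'
  -- the additive character
  have hcpos : 0 < c.val := (ZMod.val_pos).mpr hc
  have hcop : Nat.Coprime c.val p :=
    ((Nat.Prime.coprime_iff_not_dvd hp).mpr
      (Nat.not_dvd_of_pos_of_lt hcpos (ZMod.val_lt c))).symm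
  have hζc : IsPrimitiveRoot (ζ ^ c.val) p := hζ.pow_of_coprime c.val hcop
  obtain ⟨ψ, hψprim, hψa⟩ : ∃ ψ : AddChar (ZMod p) ℂ, ψ.IsPrimitive ∧
      ∀ a : ZMod p, ψ a = ζ ^ (a * c).val := by
    refine ⟨AddChar.zmodChar p ((IsPrimitiveRoot.iff_def _ p).mp hζc).left,
      AddChar.zmodChar_primitive_of_primitive_root p hζc, ?_⟩
    intro a
    rw [AddChar.zmodChar_apply, ← pow_mul, ZMod.val_mul, ← pow_eq_pow_mod _ hζ.pow_eq_one,
      mul_comm]
  -- the Gauss sum
  have hU : ∑ a : ZMod p, χF a * ψ a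
      = ∑ u : (ZMod p)ˣ, χF (u : ZMod p) * ψ (u : ZMod p) := by
    have h1 : ∑ u : (ZMod p)ˣ, χF (u : ZMod p) * ψ (u : ZMod p)
        = ∑ a ∈ Finset.univ.map ⟨Units.val, fun _ _ h => Units.ext h⟩, χF a * ψ a := by
      rw [Finset.sum_map]
      rfl
    rw [h1]
    symm
    apply Finset.sum_subset (Finset.subset_univ _)
    intro a _ ha
    have ha0 : a = 0 := by
      by_contra hne
      apply ha
      rw [Finset.mem_map]
      exact ⟨Units.mk0 a hne, Finset.mem_univ _, rfl⟩
    rw [ha0, MulChar.map_zero, zero_mul]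
  have hFs1 : (Finset.univ.filter fun u : (ZMod p)ˣ => u ∈ F) = Fs := by
    ext u
    simp [hFs]
  have hFs2 : (Finset.univ.filter fun u : (ZMod p)ˣ => ¬ u ∈ F)
      = Fs.map (mulLeftEmbedding v) := by
    ext u
    rw [Finset.mem_filter, Finset.mem_map]
    constructor
    · rintro ⟨-, hu⟩
      refine ⟨v⁻¹ * u, (hFs _).mpr ?_, ?_⟩
      · refine (Subgroup.mul_mem_iff_of_index_two hidx).mpr ⟨fun h => ?_, fun h => absurd h hu⟩
        exact absurd ((Subgroup.inv_mem_iff F).mp h) hv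
      · simp
    · rintro ⟨s, hs, rfl⟩
      refine ⟨Finset.mem_univ _, fun h => hv ?_⟩
      have h' : v * s ∈ F := h
      exact (Subgroup.mul_mem_cancel_right F ((hFs s).mp hs)).mp h'
  have hE : gaussSum χF ψ = ∑ s ∈ Fs, ζ ^ (((s : (ZMod p)ˣ) : ZMod p) * c).val
      - ∑ s ∈ Fs, ζ ^ (((v : ZMod p) * ((s : (ZMod p)ˣ) : ZMod p)) * c).val := by
    unfold gaussSum
    rw [hU]
    have h2 : ∑ u : (ZMod p)ˣ, χF (u : ZMod p) * ψ (u : ZMod p)
        = ∑ u : (ZMod p)ˣ, (if u ∈ F then ψ (u : ZMod p) else -ψ (u : ZMod p)) := by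
      apply Finset.sum_congr rfl
      intro u _
      rw [hχu]
      split_ifs <;> ring
    rw [h2, Finset.sum_ite, hFs1, hFs2, Finset.sum_map, Finset.sum_neg_distrib, ← sub_eq_add_neg]
    congr 1
    · apply Finset.sum_congr rfl
      intro s _
      rw [hψa]
    · apply Finset.sum_congr rfl
      intro s _
      rw [mulLeftEmbedding_apply, Units.val_mul, hψa]
  -- the value at `-1`
  have hneg : χF (-1) = (-1 : ℂ) ^ Nat.card F := by
    have hm1 : (-1 : ZMod p) = (((-1 : (ZMod p)ˣ)) : ZMod p) := by simp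
    rw [hm1, hχu]
    have hne : (-1 : (ZMod p)ˣ) ≠ 1 := by
      intro h
      have h' : (-1 : ZMod p) = 1 := by
        have h3 := congrArg Units.val h
        simpa using h3
      have h2 : ((2 : ℕ) : ZMod p) = 0 := by
        push_cast
        linear_combination (-1 : ZMod p) * h'
      have h4 := (ZMod.natCast_eq_zero_iff 2 p).mp h2
      have h5 := Nat.le_of_dvd (by norm_num) h4
      omega
    by_cases hm : (-1 : (ZMod p)ˣ) ∈ F
    · rw [if_pos hm]
      have ho : orderOf (-1 : (ZMod p)ˣ) = 2 := orderOf_eq_prime (by simp) hne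
      have hdvd : 2 ∣ Nat.card F := by
        rw [← ho]
        exact Subgroup.orderOf_dvd_natCard F hm
      rw [Even.neg_one_pow (even_iff_two_dvd.mpr hdvd)]
    · rw [if_neg hm]
      have hodd : Odd (Nat.card F) := by
        rw [← Nat.not_even_iff_odd]
        intro hev
        have hdvd : 2 ∣ Nat.card F := even_iff_two_dvd.mp hev
        obtain ⟨u, hu⟩ := exists_prime_orderOf_dvd_card' 2 hdvd
        have hu2 : u ^ 2 = 1 := by
          rw [← hu]
          exact pow_orderOf_eq_one u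
        have hu1 : u ≠ 1 := by
          intro h
          rw [h, orderOf_one] at hu
          omega
        have hval : (((u : (ZMod p)ˣ)) : ZMod p) ^ 2 = 1 := by
          have h3 := congrArg (fun w : F => (((w : (ZMod p)ˣ)) : ZMod p)) hu2
          simpa using h3
        have hfac : ((((u : (ZMod p)ˣ)) : ZMod p) - 1) * ((((u : (ZMod p)ˣ)) : ZMod p) + 1) = 0 := by
          linear_combination hval
        rcases mul_eq_zero.mp hfac with h | h
        · apply hu1
          apply Subtype.ext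
          apply Units.ext
          rw [Subgroup.coe_one, Units.val_one]
          exact sub_eq_zero.mp h
        · have h6 : (u : (ZMod p)ˣ) = -1 := by
            apply Units.ext
            rw [Units.val_neg, Units.val_one]
            exact eq_neg_of_add_eq_zero_left h
          exact hm (h6 ▸ u.2)
      rw [Odd.neg_one_pow hodd]
  rw [← hE, gaussSum_sq hne1 hquad hψprim, hneg, ZMod.card p]

variable {G : Type u} [Group G] [Finite G]

/-- PVD: the square of the difference of the two periods (Gauss). -/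
theorem s4504s_diff (p : ℕ) [Fact p.Prime] (x : G) (hx : orderOf x = p)
    (F : Subgroup (ZMod p)ˣ) (hF : (F : Set (ZMod p)ˣ) = normUnits p x)
    (hcard : 2 * Nat.card F + 1 = p) (v : (ZMod p)ˣ) (hv : v ∉ F)
    (χ χ₂ : G → ℂ) (l₀ : ZMod p) (hl₀ : l₀ ≠ 0) (h1 : B42Shape p x χ 1 l₀)
    (h2 : B42Shape p x χ₂ 1 ((v : ZMod p) * l₀)) :
    ∀ b : ℕ, ¬ p ∣ b → (χ (x ^ b) - χ₂ (x ^ b)) ^ 2 = (-1) ^ Nat.card F * (p : ℂ) := by
  classical
  intro b hb
  have hp : p.Prime := Fact.out
  have hζ : IsPrimitiveRoot (d1zeta p) p := Complex.isPrimitiveRoot_exp p hp.ne_zero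
  obtain ⟨Fs, hFs⟩ : ∃ Fs : Finset (ZMod p)ˣ, ∀ s, s ∈ Fs ↔ s ∈ F :=
    ⟨Finset.univ.filter (· ∈ F), fun s => by simp⟩
  have hfs : ∀ f : (ZMod p)ˣ → ℂ, ∑ᶠ s ∈ normUnits p x, f s = ∑ s ∈ Fs, f s := by
    intro f
    have hset : (F : Set (ZMod p)ˣ) = (Fs : Set (ZMod p)ˣ) := by
      ext s
      simp [hFs]
    rw [← hF, hset, finsum_mem_coe_finset]
  have hb0 : (b : ZMod p) ≠ 0 := fun h => hb ((ZMod.natCast_eq_zero_iff b p).mp h)
  have hc : (b : ZMod p) * l₀ ≠ 0 := mul_ne_zero hb0 hl₀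
  have e1 : χ (x ^ b) = ∑ s ∈ Fs, d1zeta p ^ (((s : (ZMod p)ˣ) : ZMod p) * ((b : ZMod p) * l₀)).val := by
    rw [h1 b, hfs, Nat.cast_one, one_mul]
    apply Finset.sum_congr rfl
    intro s _
    congr 2
    ring
  have e2 : χ₂ (x ^ b) = ∑ s ∈ Fs,
      d1zeta p ^ (((v : ZMod p) * ((s : (ZMod p)ˣ) : ZMod p)) * ((b : ZMod p) * l₀)).val := by
    rw [h2 b, hfs, Nat.cast_one, one_mul]
    apply Finset.sum_congr rfl
    intro s _
    congr 2
    ring
  rw [e1, e2]
  exact pvd_gauss p F hcard v hv (d1zeta p) hζ _ hc Fs hFs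

end Cfsg.Agent.Helper75
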