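import Cfsg.Agent.Helper9.BRDefs
import Cfsg.Agent.Helper75.BRT4
import Cfsg.Agent.Helper80.CharIrr

/-!
# CALL S0998 (helper79), piece PSUM: `∑_{x ∈ P} θ(x) θ'(x)̄` for exceptional characters (helper75)
-/

set_option autoImplicit false
open Cfsg
open scoped ComplexConjugate

namespace Cfsg.Agent.Helper75

universe u

/-- PSUM -/
theorem s998_psum {G : Type u} [Group G] [Fintype G] [DecidableEq G] {p : ℕ} [Fact p.Prime]
    {M : Ideal Cfsg.AlgInt} (hM : Cfsg.IsPModular p M) (P : Sylow p G)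
    (hP : Nat.card (P : Subgroup G) = p) (e t f : ℕ)
    (hpart : ∀ F : G → ℂ, (∀ a g : G, F (a * g * a⁻¹) = F g) →
      ((p * e : ℕ) : ℂ) * ∑ g : G, (if p ∣ orderOf g then F g else 0)
        = (Nat.card G : ℂ) * ∑ᶠ x : (P : Subgroup G), (if (x : G) = 1 then 0 else F (x : G)))
    (T : Cfsg.Agent.Helper9.BRTab p M P e) (het : e * t = p - 1)
    (hf : ∀ θ ∈ T.Y, Cfsg.charDegree (θ : G → ℂ) = f)
    (θ θ' : Cfsg.IrrCharacter G) (hθ : θ ∈ T.Y) (hθ' : θ' ∈ T.Y) :
    ∑ᶠ x : (P : Subgroup G), (θ : G → ℂ) (x : G) * conj ((θ' : G → ℂ) (x : G))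
      = if θ = θ' then ((f : ℂ) ^ 2 + (e : ℂ) * ((p : ℂ) - (e : ℂ)))
        else ((f : ℂ) ^ 2 - (e : ℂ) ^ 2) := by
  classical
  have hp := (Fact.out : p.Prime)
  have hp2 := hp.two_le
  let _ : Fintype (P : Subgroup G) := Fintype.ofFinite _
  have hN : (Nat.card G : ℂ) ≠ 0 := by
    have : 0 < Nat.card G := Nat.card_pos
    exact_mod_cast this.ne'
  have he0 : 0 < e := by
    rcases Nat.eq_zero_or_pos e with h | h
    · subst h; omega
    · exact h
  have ht0 : 0 < t := by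
    rcases Nat.eq_zero_or_pos t with h | h
    · subst h; omega
    · exact h
  have hYc : T.Y.card = t := by
    rw [T.hcardY, ← het, Nat.mul_div_cancel_left _ he0]
  have hpc : (p : ℂ) - 1 = (e : ℂ) * (t : ℂ) := by
    have h1 : ((e * t : ℕ) : ℂ) = ((p - 1 : ℕ) : ℂ) := congrArg _ het
    rw [Nat.cast_sub (by omega)] at h1
    push_cast at h1
    linear_combination -h1
  -- the `p`-regular sum
  obtain ⟨R, hR⟩ : ∃ R : ℂ, R = ∑ g : G,
      (if p ∣ orderOf g then 0 else (θ : G → ℂ) g * conj ((θ : G → ℂ) g)) := ⟨_, rfl⟩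
  have hA : ∀ θ1 ∈ T.Y, ∀ θ2 ∈ T.Y,
      ((p : ℂ) * (e : ℂ)) * ((if θ1 = θ2 then (Nat.card G : ℂ) else 0) - R)
        = (Nat.card G : ℂ) * ∑ x : (P : Subgroup G),
            (if (x : G) = 1 then 0 else (θ1 : G → ℂ) x * conj ((θ2 : G → ℂ) x)) := by
    intro θ1 h1 θ2 h2
    have h := hpart (fun g => (θ1 : G → ℂ) g * conj ((θ2 : G → ℂ) g))
      (fun a g => by simp only [Helper81.irr_conj])
    rw [finsum_eq_sum_of_fintype] at h
    rw [← h]
    have hsplit : ∑ g : G, (if p ∣ orderOf g then (θ1 : G → ℂ) g * conj ((θ2 : G → ℂ) g) else 0)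
        = (∑ g : G, (θ1 : G → ℂ) g * conj ((θ2 : G → ℂ) g)) - R := by
      rw [eq_sub_iff_add_eq, hR, ← Finset.sum_add_distrib]
      apply Finset.sum_congr rfl
      intro g _
      by_cases hg : p ∣ orderOf g
      · rw [if_pos hg, if_pos hg, add_zero]
      · rw [if_neg hg, if_neg hg, zero_add, T.hYreg θ1 h1 θ hθ g hg, T.hYreg θ2 h2 θ hθ g hg]
    rw [hsplit, Helper80.irr_orthogonality_conj, Nat.card_eq_fintype_card]
    push_cast
    ring
  -- summing `br_block_sq_sum` over `P#`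
  have hB : ∑ θ1 ∈ T.Y, ∑ x : (P : Subgroup G),
      (if (x : G) = 1 then 0 else (θ1 : G → ℂ) x * conj ((θ1 : G → ℂ) x))
        = ((p : ℂ) - 1) * ((p : ℂ) - (e : ℂ)) := by
    rw [Finset.sum_comm]
    have h1 : ∀ x : (P : Subgroup G),
        ∑ θ1 ∈ T.Y, (if (x : G) = 1 then 0 else (θ1 : G → ℂ) x * conj ((θ1 : G → ℂ) x))
          = ((p : ℂ) - (e : ℂ)) - (if x = 1 then ((p : ℂ) - (e : ℂ)) else 0) := by
      intro x
      by_cases hx : x = 1
      · subst hx
        simp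
      · have hx' : (x : G) ≠ 1 := fun h => hx (Subtype.ext h)
        rw [if_neg hx, sub_zero, ← br_block_sq_sum hM hP T (x : G) x.2 hx']
        apply Finset.sum_congr rfl
        intro θ1 _
        rw [if_neg hx']
    rw [Finset.sum_congr rfl (fun x _ => h1 x), Finset.sum_sub_distrib, Finset.sum_ite_eq']
    simp only [Finset.mem_univ, if_true, Finset.sum_const, Finset.card_univ, nsmul_eq_mul]
    rw [← Nat.card_eq_fintype_card, hP]
    ring
  -- the value of `R`
  have hRval : (p : ℂ) * R = (Nat.card G : ℂ) * (e : ℂ) := by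
    have h1 : ∑ θ1 ∈ T.Y, ((p : ℂ) * (e : ℂ)) * ((Nat.card G : ℂ) - R)
        = (Nat.card G : ℂ) * (((p : ℂ) - 1) * ((p : ℂ) - (e : ℂ))) := by
      rw [← hB, Finset.mul_sum]
      apply Finset.sum_congr rfl
      intro θ1 h1
      rw [← hA θ1 h1 θ1 h1, if_pos rfl]
    rw [Finset.sum_const, hYc, nsmul_eq_mul, hpc] at h1
    have het0 : (e : ℂ) * (t : ℂ) ≠ 0 := by
      have : 0 < e * t := Nat.mul_pos he0 ht0
      exact_mod_cast this.ne'
    have h2 : ((e : ℂ) * (t : ℂ)) * ((p : ℂ) * R - (Nat.card G : ℂ) * (e : ℂ)) = 0 := by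
      linear_combination -h1
    rcases mul_eq_zero.mp h2 with h | h
    · exact absurd h het0
    · linear_combination h
  -- conclusion
  have hfin : ∑ x : (P : Subgroup G),
      (if (x : G) = 1 then 0 else (θ : G → ℂ) x * conj ((θ' : G → ℂ) x))
        = (p : ℂ) * (e : ℂ) * (if θ = θ' then 1 else 0) - (e : ℂ) ^ 2 := by
    have h1 := hA θ hθ θ' hθ'
    have h2 : (Nat.card G : ℂ) * (∑ x : (P : Subgroup G),
        (if (x : G) = 1 then 0 else (θ : G → ℂ) x * conj ((θ' : G → ℂ) x))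
          - ((p : ℂ) * (e : ℂ) * (if θ = θ' then 1 else 0) - (e : ℂ) ^ 2)) = 0 := by
      by_cases hc : θ = θ'
      · rw [if_pos hc] at h1 ⊢
        linear_combination -h1 - (e : ℂ) * hRval
      · rw [if_neg hc] at h1 ⊢
        linear_combination -h1 - (e : ℂ) * hRval
    rcases mul_eq_zero.mp h2 with h | h
    · exact absurd h hN
    · linear_combination h
  rw [finsum_eq_sum_of_fintype]
  have hsp : ∑ x : (P : Subgroup G), (θ : G → ℂ) (x : G) * conj ((θ' : G → ℂ) (x : G))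
      = (θ : G → ℂ) 1 * conj ((θ' : G → ℂ) 1) + ∑ x : (P : Subgroup G),
        (if (x : G) = 1 then 0 else (θ : G → ℂ) x * conj ((θ' : G → ℂ) x)) := by
    have h1 : ∀ x : (P : Subgroup G), (θ : G → ℂ) (x : G) * conj ((θ' : G → ℂ) (x : G))
        = (if x = 1 then (θ : G → ℂ) 1 * conj ((θ' : G → ℂ) 1) else 0)
          + (if (x : G) = 1 then 0 else (θ : G → ℂ) x * conj ((θ' : G → ℂ) x)) := by
      intro x
      by_cases hx : x = 1
      · subst hx
        simp
      · have hx' : (x : G) ≠ 1 := fun h => hx (Subtype.ext h)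
        rw [if_neg hx, if_neg hx', zero_add]
    rw [Finset.sum_congr rfl (fun x _ => h1 x), Finset.sum_add_distrib, Finset.sum_ite_eq']
    simp only [Finset.mem_univ, if_true]
  rw [hsp, hfin, Helper81.irr_one_eq_charDegree, Helper81.irr_one_eq_charDegree, hf θ hθ,
    hf θ' hθ', Complex.conj_natCast]
  by_cases hc : θ = θ'
  · rw [if_pos hc, if_pos hc]; ring
  · rw [if_neg hc, if_neg hc]; ring

end Cfsg.Agent.Helper75
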