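import Mathlib
import Cfsg.Prelude.Def_GeometricClasses
import Cfsg.Agent.Helper90.SFRDefs

/-!
# CALL S5965 (helper90), piece BADE2 (core): `diag(ζ, ζ⁻¹)` is not conjugate into the subfield
subgroup of `SL_2` (helper75).  The multiset criterion NECDIAG is a hypothesis here.
-/

set_option autoImplicit false

namespace Cfsg.Agent.Helper75

open Module Polynomial Cfsg.Agent.Helper90.SFR

section top
variable {F : Type*} [Field F] [Fintype F]

omit [Fintype F] in
/-- two-element multisets: equality of sums and products gives equality up to order -/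
theorem sfr_pair_cases (a b a' b' : F)
    (hm : (Finset.univ.val.map fun i : Fin 2 => (![a', b'] : Fin 2 → F) i)
      = Finset.univ.val.map fun i : Fin 2 => (![a, b] : Fin 2 → F) i) :
    (a' = a ∧ b' = b) ∨ (a' = b ∧ b' = a) := by
  have hs := congrArg Multiset.sum hm
  have hp := congrArg Multiset.prod hm
  have hs' : a' + b' = a + b := by
    simpa [Fin.sum_univ_two] using hs
  have hp' : a' * b' = a * b := by
    simpa [Fin.prod_univ_two] using hp
  have h0 : (a' - a) * (a' - b) = 0 := by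
    linear_combination a' * hs' - hp'
  rcases mul_eq_zero.mp h0 with h | h
  · left
    have ha : a' = a := sub_eq_zero.mp h
    exact ⟨ha, by rw [ha] at hs'; exact add_left_cancel hs'⟩
  · right
    have ha : a' = b := sub_eq_zero.mp h
    refine ⟨ha, ?_⟩
    rw [ha] at hs'
    linear_combination hs'

theorem bad_two_core (F₀ : Subfield F) (q₀ : ℕ) (hF₀ : Nat.card ↥F₀ = q₀) (r : ℕ) [Fact r.Prime]
    (hr2 : r ≠ 2) (hr : r ∣ Fintype.card F - 1) (hr0 : ¬ r ∣ q₀ - 1) (hr1 : ¬ r ∣ q₀ + 1)
    (hnec : ∀ (x : Matrix.SpecialLinearGroup (Fin 2) F) (d : Fin 2 → F),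
      (x : Matrix (Fin 2) (Fin 2) F) = Matrix.diagonal d → IsConj F₀ x →
      ∃ c : F, c ≠ 0 ∧ (Finset.univ.val.map fun i : Fin 2 => (c * d i) ^ q₀)
        = Finset.univ.val.map fun i : Fin 2 => c * d i) :
    IsBad F₀ 2 r := by
  classical
  have hrp := (Fact.out : r.Prime)
  have hq0 : 0 < q₀ := by rw [← hF₀]; exact Nat.card_pos
  obtain ⟨u, hu⟩ : ∃ u : Fˣ, orderOf u = r := by
    apply exists_prime_orderOf_dvd_card r
    rw [Fintype.card_units]
    exact hr
  have hpow : ∀ k : ℕ, (u : F) ^ k = 1 → r ∣ k := by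
    intro k hk
    rw [← hu]
    apply orderOf_dvd_of_pow_eq_one
    apply Units.ext
    rw [Units.val_pow_eq_pow_val, hk, Units.val_one]
  have hζr : (u : F) ^ r = 1 := by
    rw [← Units.val_pow_eq_pow_val, ← hu, pow_orderOf_eq_one, Units.val_one]
  have hζ0 : (u : F) ≠ 0 := u.ne_zero
  have hcop : Nat.Coprime r 2 := by
    rw [Nat.coprime_primes hrp Nat.prime_two]
    exact hr2
  have hdet : (Matrix.diagonal (![(u : F), (u : F)⁻¹] : Fin 2 → F)).det = 1 := by
    rw [Matrix.det_diagonal, Fin.prod_univ_two]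
    simp [hζ0]
  obtain ⟨x, hx⟩ : ∃ x : Matrix.SpecialLinearGroup (Fin 2) F,
      (x : Matrix (Fin 2) (Fin 2) F) = Matrix.diagonal (![(u : F), (u : F)⁻¹] : Fin 2 → F) :=
    ⟨⟨_, hdet⟩, rfl⟩
  refine ⟨x, ⟨1, ?_⟩, ?_, ?_⟩
  · rw [Matrix.SpecialLinearGroup.coe_pow, hx, Matrix.diagonal_pow, one_smul,
      ← Matrix.diagonal_one]
    congr 1
    ext i
    fin_cases i
    · simpa using hζr
    · simp [hζr]
  · intro z hz
    rw [hx] at hz
    have h00 := congrFun (congrFun hz 0) 0
    have h11 := congrFun (congrFun hz 1) 1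
    simp at h00 h11
    have hsq : (u : F) ^ 2 = 1 := by
      have : (u : F) = (u : F)⁻¹ := h00.trans h11.symm
      field_simp at this
      linear_combination this
    have h2 := hpow 2 hsq
    have := (Nat.prime_dvd_prime_iff_eq hrp Nat.prime_two).mp h2
    exact hr2 this
  · intro hconj
    obtain ⟨c, hc, hm⟩ := hnec x (![(u : F), (u : F)⁻¹]) hx hconj
    have hm' : (Finset.univ.val.map fun i : Fin 2 =>
          (![(c * (u : F)) ^ q₀, (c * (u : F)⁻¹) ^ q₀] : Fin 2 → F) i)
        = Finset.univ.val.map fun i : Fin 2 => (![c * (u : F), c * (u : F)⁻¹] : Fin 2 → F) i := by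
      have e1 : (fun i : Fin 2 => (![(c * (u : F)) ^ q₀, (c * (u : F)⁻¹) ^ q₀] : Fin 2 → F) i)
          = fun i : Fin 2 => (c * (![(u : F), (u : F)⁻¹] : Fin 2 → F) i) ^ q₀ := by
        funext i; fin_cases i <;> simp
      have e2 : (fun i : Fin 2 => (![c * (u : F), c * (u : F)⁻¹] : Fin 2 → F) i)
          = fun i : Fin 2 => c * (![(u : F), (u : F)⁻¹] : Fin 2 → F) i := by
        funext i; fin_cases i <;> simp
      rw [e1, e2]
      exact hm
    have hcq : c ^ q₀ ≠ 0 := pow_ne_zero _ hc
    have hζq : (u : F) ^ q₀ ≠ 0 := pow_ne_zero _ hζ0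
    rcases sfr_pair_cases _ _ _ _ hm' with ⟨h1, h2⟩ | ⟨h1, h2⟩
    · -- both fixed
      apply hr0
      have hk : (u : F) ^ (2 * (q₀ - 1)) = 1 := by
        have e : (u : F) ^ (2 * q₀) = (u : F) ^ 2 := by
          rw [mul_pow] at h1 h2
          rw [inv_pow] at h2
          have h3 : (c ^ q₀ * (u : F) ^ q₀) * (c * (u : F)⁻¹)
              = (c * (u : F)) * (c ^ q₀ * ((u : F) ^ q₀)⁻¹) := by rw [h1, h2]
          field_simp at h3
          rw [pow_mul']
          linear_combination h3
        have e2 : (u : F) ^ (2 * (q₀ - 1)) * (u : F) ^ 2 = 1 * (u : F) ^ 2 := by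
          rw [← pow_add, one_mul, ← e]
          congr 1
          omega
        exact mul_right_cancel₀ (pow_ne_zero 2 hζ0) e2
      exact (Nat.Coprime.dvd_mul_left hcop).mp (hpow _ hk)
    · -- swapped
      apply hr1
      have hk : (u : F) ^ (2 * (q₀ + 1)) = 1 := by
        rw [mul_pow] at h1 h2
        rw [inv_pow] at h2
        have h3 : (c ^ q₀ * (u : F) ^ q₀) * (c * (u : F))
            = (c * (u : F)⁻¹) * (c * (u : F)) := by rw [h1]
        have h4 : (c ^ q₀ * ((u : F) ^ q₀)⁻¹) * (c * (u : F)⁻¹)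
            = (c * (u : F)) * (c * (u : F)⁻¹) := by rw [h2]
        field_simp at h3 h4
        have e : (u : F) ^ (2 * (q₀ + 1)) = ((u : F) ^ q₀) ^ 2 * (u : F) ^ 2 := by
          rw [← pow_mul, ← pow_add]
          congr 1
          ring
        rw [e]
        have h5 : c ^ q₀ * (((u : F) ^ q₀) ^ 2 * (u : F) ^ 2 - 1) = 0 := by
          linear_combination (u : F) ^ q₀ * (u : F) * h3 - h4
        rcases mul_eq_zero.mp h5 with h | h
        · exact absurd h hcq
        · linear_combination h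
      exact (Nat.Coprime.dvd_mul_left hcop).mp (hpow _ hk)

end top

end Cfsg.Agent.Helper75
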