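import Cfsg.Agent.Helper75.SecOrth
import Cfsg.Agent.Helper75.GaloisAMGM
import Cfsg.Agent.Helper75.Zeros

/-!
# Galois action on contributions, and two counting lemmas (helper75)

* `galois_contrib`: a field automorphism raising `|G|`-th roots of unity to the `k`-th power maps
  the contribution of `χ` at `(y, b)` to the contribution at `(y ^ k, b)`.
* `card_mul_pow_le_sum_norm`: a family of nonzero algebraic integers `μ z` (`z` in a set closed
  under powers) permuted by the Galois group along `z ↦ z ^ k` and divisible by `p ^ h` in the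
  local ring has `|Z| p^h ≤ Σ |μ z|`.
* `weighted_bessel`: Bessel's inequality for a family of "projections" of `χ` that are pairwise
  orthogonal outside a relation whose classes have at most `R` members.
-/

set_option autoImplicit false
open Cfsg
open scoped ComplexConjugate

namespace Cfsg.Agent.Helper75

universe u

theorem irr_galois_pow {K : Type*} [Group K] [Finite K] (ψ : Cfsg.IrrCharacter K) (σ : ℂ ≃+* ℂ)
    (k : ℕ) (hσ : ∀ z : ℂ, z ^ Nat.card K = 1 → σ z = z ^ k) (x : K) :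
    σ ((ψ : K → ℂ) x) = (ψ : K → ℂ) (x ^ k) := by
  obtain ⟨n, ρ, -, hψ⟩ := ψ.2
  rw [← hψ]
  exact (character_pow_eq ρ σ k hσ x).symm

variable {G : Type u} [Group G] [Fintype G]

omit [Fintype G] in
theorem pow_card_subgroup_of_pow_card [Finite G] (H : Subgroup G) {σ : ℂ ≃+* ℂ} {k : ℕ}
    (hσ : ∀ z : ℂ, z ^ Nat.card G = 1 → σ z = z ^ k) :
    ∀ z : ℂ, z ^ Nat.card H = 1 → σ z = z ^ k := by
  intro z hz
  apply hσ
  obtain ⟨c, hc⟩ := Subgroup.card_subgroup_dvd_card H
  rw [hc, pow_mul, hz, one_pow]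

theorem galois_classInner_sec (H : Subgroup G) [Fintype H] (y : G)
    (hcent : ∀ h : H, y * (h : G) = (h : G) * y) (χ : Cfsg.IrrCharacter G)
    (θ : Cfsg.IrrCharacter H) (σ : ℂ ≃+* ℂ) (k : ℕ) (hk : Nat.Coprime k (Nat.card G))
    (hσ : ∀ z : ℂ, z ^ Nat.card G = 1 → σ z = z ^ k) :
    σ (Cfsg.classInner (fun c : H => (χ : G → ℂ) (y * c)) (θ : H → ℂ))
      = Cfsg.classInner (fun c : H => (χ : G → ℂ) (y ^ k * c)) (θ : H → ℂ) := by
  have hn : Nat.card G ≠ 0 := Nat.card_pos.ne'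
  have hkH : Nat.Coprime (Nat.card H) k :=
    (Nat.Coprime.coprime_dvd_right (Subgroup.card_subgroup_dvd_card H) hk).symm
  unfold Cfsg.classInner
  rw [map_mul, map_inv₀, map_natCast, map_sum]
  congr 1
  rw [← Equiv.sum_comp (powCoprime hkH)
    (fun c : H => (χ : G → ℂ) (y ^ k * c) * conj ((θ : H → ℂ) c))]
  refine Finset.sum_congr rfl fun c _ => ?_
  rw [map_mul, ringEquiv_conj_comm σ (Nat.card G) hn (irr_subgroup_mem_cycField H θ c),
    irr_galois_pow χ σ k hσ, irr_galois_pow θ σ k (pow_card_subgroup_of_pow_card H hσ),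
    powCoprime_apply]
  have e : (y * (c : G)) ^ k = y ^ k * ((c ^ k : H) : G) := by
    rw [Subgroup.coe_pow]
    exact (show Commute y (c : G) from hcent c).mul_pow k
  rw [e]

theorem blockPart_sec_mem_cycField (H : Subgroup G) [Fintype H] (y : G)
    (b : Set (Cfsg.IrrCharacter H)) (χ : Cfsg.IrrCharacter G) (x : H) :
    Cfsg.blockPart b (fun c : H => (χ : G → ℂ) (y * c)) x ∈ cycField (Nat.card G) := by
  classical
  have := Fintype.ofFinite (Cfsg.IrrCharacter H)
  rw [blockPart_filter_apply]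
  refine sum_mem fun θ _ => mul_mem ?_ (irr_subgroup_mem_cycField H θ x)
  unfold Cfsg.classInner
  refine mul_mem (inv_mem (natCast_mem _ _)) (sum_mem fun c _ => mul_mem (irr_mem_cycField χ _)
    (conj_mem_cycField _ (irr_subgroup_mem_cycField H θ c)))

theorem galois_blockPart_sec (H : Subgroup G) [Fintype H] (y : G)
    (hcent : ∀ h : H, y * (h : G) = (h : G) * y) (b : Set (Cfsg.IrrCharacter H))
    (χ : Cfsg.IrrCharacter G) (σ : ℂ ≃+* ℂ) (k : ℕ) (hk : Nat.Coprime k (Nat.card G))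
    (hσ : ∀ z : ℂ, z ^ Nat.card G = 1 → σ z = z ^ k) (x : H) :
    σ (Cfsg.blockPart b (fun c : H => (χ : G → ℂ) (y * c)) x)
      = Cfsg.blockPart b (fun c : H => (χ : G → ℂ) (y ^ k * c)) (x ^ k) := by
  classical
  have := Fintype.ofFinite (Cfsg.IrrCharacter H)
  rw [blockPart_filter_apply, blockPart_filter_apply, map_sum]
  refine Finset.sum_congr rfl fun θ _ => ?_
  rw [map_mul, galois_classInner_sec H y hcent χ θ σ k hk hσ,
    irr_galois_pow θ σ k (pow_card_subgroup_of_pow_card H hσ)]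

/-- **Galois action on contributions.** -/
theorem galois_contrib (H : Subgroup G) [Fintype H] (y : G)
    (hcent : ∀ h : H, y * (h : G) = (h : G) * y) (b : Set (Cfsg.IrrCharacter H)) (p d : ℕ)
    (χ : Cfsg.IrrCharacter G) (σ : ℂ ≃+* ℂ) (k : ℕ) (hk : Nat.Coprime k (Nat.card G))
    (hσ : ∀ z : ℂ, z ^ Nat.card G = 1 → σ z = z ^ k) :
    σ (contrib H y b p d (χ : G → ℂ) (χ : G → ℂ))
      = contrib H (y ^ k) b p d (χ : G → ℂ) (χ : G → ℂ) := by
  have hn : Nat.card G ≠ 0 := Nat.card_pos.ne'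
  have hkH : Nat.Coprime (Nat.card H) k :=
    (Nat.Coprime.coprime_dvd_right (Subgroup.card_subgroup_dvd_card H) hk).symm
  unfold contrib Helper77.pregInner
  rw [map_mul, map_div₀, map_pow, map_natCast, map_natCast, map_sum]
  congr 1
  rw [← Equiv.sum_comp (powCoprime hkH) (fun x : H => if ¬ p ∣ orderOf x then
    Cfsg.blockPart b (fun c : H => (χ : G → ℂ) (y ^ k * c)) x
      * conj (Cfsg.blockPart b (fun c : H => (χ : G → ℂ) (y ^ k * c)) x) else 0)]
  refine Finset.sum_congr rfl fun x _ => ?_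
  have hord : orderOf (x ^ k) = orderOf x :=
    Nat.Coprime.orderOf_pow (Nat.Coprime.coprime_dvd_left (orderOf_dvd_natCard x) hkH)
  rw [powCoprime_apply, hord]
  by_cases hx : p ∣ orderOf x
  · simp [hx]
  · simp only [hx, not_false_eq_true, if_true]
    rw [map_mul, ringEquiv_conj_comm σ (Nat.card G) hn (blockPart_sec_mem_cycField H y b χ x),
      galois_blockPart_sec H y hcent b χ σ k hk hσ]

omit [Fintype G] in
/-- If the contribution of `χ` with itself vanishes, so do its contributions with all `ψ`. -/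
theorem contrib_eq_zero_of_self_eq_zero (H : Subgroup G) [Fintype H] (y : G)
    (b : Set (Cfsg.IrrCharacter H)) (p d : ℕ) (hp : p ≠ 0) (χ ψ : G → ℂ)
    (h : contrib H y b p d χ χ = 0) : contrib H y b p d ψ χ = 0 := by
  have hcardH : (Nat.card H : ℂ) ≠ 0 := by
    have : 0 < Nat.card H := Nat.card_pos
    exact_mod_cast this.ne'
  have hpc : (p : ℂ) ^ d ≠ 0 := pow_ne_zero _ (by exact_mod_cast hp)
  unfold contrib at h ⊢
  have h0 : Helper77.pregInner p (Cfsg.blockPart b (fun c : H => χ (y * c)))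
      (Cfsg.blockPart b (fun c : H => χ (y * c))) = 0 := by
    rcases mul_eq_zero.mp h with h1 | h1
    · exact absurd h1 (div_ne_zero hpc hcardH)
    · exact h1
  have key : ∀ x : H, ¬ p ∣ orderOf x → Cfsg.blockPart b (fun c : H => χ (y * c)) x = 0 := by
    intro x hx
    unfold Helper77.pregInner at h0
    have h1 := congrArg Complex.re h0
    rw [Complex.re_sum, Complex.zero_re] at h1
    have hnn : ∀ x' ∈ (Finset.univ : Finset H), 0 ≤ (if ¬ p ∣ orderOf x' then
        Cfsg.blockPart b (fun c : H => χ (y * c)) x'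
          * conj (Cfsg.blockPart b (fun c : H => χ (y * c)) x') else 0).re := by
      intro x' _
      by_cases hx' : p ∣ orderOf x'
      · rw [if_neg (not_not.mpr hx'), Complex.zero_re]
      · rw [if_pos hx', Complex.mul_conj, Complex.ofReal_re]
        exact Complex.normSq_nonneg _
    have h2 := (Finset.sum_eq_zero_iff_of_nonneg hnn).mp h1 x (Finset.mem_univ x)
    rw [if_pos hx, Complex.mul_conj, Complex.ofReal_re] at h2
    exact Complex.normSq_eq_zero.mp h2
  unfold Helper77.pregInner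
  rw [Finset.sum_eq_zero, mul_zero]
  intro x _
  by_cases hx : p ∣ orderOf x
  · simp [hx]
  · rw [if_pos hx, key x hx, map_zero, mul_zero]

omit [Group G] [Fintype G] in
/-- An integer divisible by `p ^ N` in the local ring is divisible by `p ^ N`. -/
theorem int_dvd_of_memLocalRing {p : ℕ} {M : Ideal Cfsg.AlgInt} (hM : Cfsg.IsPModular p M)
    (N : ℕ) : ∀ j : ℤ, Cfsg.MemLocalRing M ((j : ℂ) / (p : ℂ) ^ N) → (p : ℤ) ^ N ∣ j := by
  have hMm := hM.2.1
  have hp := hM.1
  have hpc : (p : ℂ) ≠ 0 := by exact_mod_cast hp.ne_zero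
  induction N with
  | zero => intro j _; simp
  | succ N ih =>
    intro j h
    have h1 : Cfsg.MemLocalRing M ((j : ℂ) / (p : ℂ) ^ N) := by
      have e : (j : ℂ) / (p : ℂ) ^ N = (p : ℂ) * ((j : ℂ) / (p : ℂ) ^ (N + 1)) := by
        rw [pow_succ]
        field_simp
      rw [e]
      exact Helper77.memLocalRing_of_memLocalIdeal
        (Helper77.memLocalIdeal_mul' hMm (Helper77.memLocalIdeal_prime hM) h)
    obtain ⟨j', rfl⟩ := ih j h1
    have h2 : Cfsg.MemLocalRing M ((j' : ℂ) / (p : ℂ)) := by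
      have e : (((p : ℤ) ^ N * j' : ℤ) : ℂ) / (p : ℂ) ^ (N + 1) = (j' : ℂ) / (p : ℂ) := by
        push_cast
        rw [pow_succ]
        field_simp
      rwa [e] at h
    have h3 : (p : ℤ) ∣ j' := by
      by_contra hnd
      have hnd' : ¬ p ∣ j'.natAbs := fun hd => hnd (Int.natCast_dvd.mpr hd)
      have h4 : Cfsg.MemLocalIdeal M (j' : ℂ) := by
        have e : (j' : ℂ) = (p : ℂ) * ((j' : ℂ) / (p : ℂ)) := by field_simp
        rw [e]
        exact Helper77.memLocalIdeal_mul' hMm (Helper77.memLocalIdeal_prime hM) h2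
      apply Helper77.not_memLocalIdeal_natCast hM hnd'
      rcases Int.natAbs_eq j' with h5 | h5
      · have e : ((j'.natAbs : ℕ) : ℂ) = (j' : ℂ) := by
          have h6 := congrArg (fun t : ℤ => (t : ℂ)) h5
          simp only [Int.cast_natCast] at h6
          exact h6.symm
        rw [e]
        exact h4
      · have e : ((j'.natAbs : ℕ) : ℂ) = -(j' : ℂ) := by
          have h6 := congrArg (fun t : ℤ => (t : ℂ)) h5
          simp only [Int.cast_neg, Int.cast_natCast] at h6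
          rw [h6, neg_neg]
        rw [e]
        exact Helper77.memLocalIdeal_neg h4
    obtain ⟨j'', rfl⟩ := h3
    exact ⟨j'', by rw [pow_succ]; ring⟩

/-- **Galois-average lower bound.**  Let `Z` be a finite set of group elements closed under
powers and `μ z` nonzero algebraic integers of the `|G|`-th cyclotomic field, permuted by the
Galois group along `z ↦ z ^ k` and divisible by `p ^ h` in the local ring.  Then
`|Z| p^h ≤ Σ_{z ∈ Z} |μ z|`. -/
theorem card_mul_pow_le_sum_norm {p : ℕ} {M : Ideal Cfsg.AlgInt} (hM : Cfsg.IsPModular p M)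
    (h : ℕ) (Z : Finset G) (hZ : ∀ z ∈ Z, ∀ k : ℕ, z ^ k ∈ Z) (μ : G → ℂ)
    (hgal : ∀ (σ : ℂ ≃+* ℂ) (k : ℕ), Nat.Coprime k (Nat.card G) →
      (∀ z : ℂ, z ^ Nat.card G = 1 → σ z = z ^ k) → ∀ z ∈ Z, σ (μ z) = μ (z ^ k))
    (hmem : ∀ z ∈ Z, μ z ∈ cycField (Nat.card G)) (hint : ∀ z ∈ Z, IsIntegral ℤ (μ z))
    (hne : ∀ z ∈ Z, μ z ≠ 0) (hdiv : ∀ z ∈ Z, Cfsg.MemLocalRing M (μ z / (p : ℂ) ^ h)) :
    (Z.card : ℝ) * (p : ℝ) ^ h ≤ ∑ z ∈ Z, ‖μ z‖ := by
  classical
  have hMm := hM.2.1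
  have hp := hM.1
  have hn : Nat.card G ≠ 0 := Nat.card_pos.ne'
  have : NeZero (Nat.card G) := ⟨hn⟩
  have hpR : (0 : ℝ) < (p : ℝ) := by exact_mod_cast hp.pos
  have hpC : (p : ℂ) ≠ 0 := by exact_mod_cast hp.ne_zero
  choose σ hσ using fun u : (ZMod (Nat.card G))ˣ =>
    exists_ringEquiv_pow (Nat.card G) hn (u : ZMod (Nat.card G)).val (ZMod.val_coe_unit_coprime u)
  have hσμ : ∀ (u : (ZMod (Nat.card G))ˣ), ∀ z ∈ Z,
      σ u (μ z) = μ (z ^ (u : ZMod (Nat.card G)).val) :=
    fun u z hz => hgal (σ u) _ (ZMod.val_coe_unit_coprime u) (hσ u) z hz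
  set φ : ℕ := Fintype.card (ZMod (Nat.card G))ˣ with hφ
  -- the norm of the product of the conjugates is at least `p ^ (h φ)`
  have hprod : ∀ z ∈ Z, (p : ℝ) ^ (h * φ) ≤ ‖∏ u : (ZMod (Nat.card G))ˣ, σ u (μ z)‖ := by
    intro z hz
    obtain ⟨P, hP⟩ : ∃ P : ℂ, P = ∏ u : (ZMod (Nat.card G))ˣ, σ u (μ z) := ⟨_, rfl⟩
    rw [← hP]
    have hmemP : P ∈ cycField (Nat.card G) := by
      rw [hP]
      exact prod_mem (fun u _ => ringEquiv_mem_cycField (σ u) _ (hmem z hz))
    have hintP : IsIntegral ℤ P := by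
      rw [hP]
      exact IsIntegral.prod _ (fun u _ => map_isIntegral_int (σ u) (hint z hz))
    have hfix : ∀ τ : ℂ ≃+* ℂ, τ P = P := by
      intro τ
      obtain ⟨k, hk, hτ⟩ := exists_pow_of_ringEquiv τ (Nat.card G) hn
      set v : (ZMod (Nat.card G))ˣ := ZMod.unitOfCoprime k hk with hv
      rw [hP, map_prod]
      rw [← Equiv.prod_comp (Equiv.mulLeft v) (fun u : (ZMod (Nat.card G))ˣ => σ u (μ z))]
      apply Finset.prod_congr rfl
      intro u _
      rw [Equiv.coe_mulLeft]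
      have key := ringHom_eqOn_cycField (Nat.card G) ((τ : ℂ →+* ℂ).comp (σ u : ℂ →+* ℂ))
        (σ (v * u) : ℂ →+* ℂ) (fun ζ hζ => ?_) (hmem z hz)
      · simpa using key
      · simp only [RingHom.comp_apply, RingHom.coe_coe]
        rw [hσ u ζ hζ, hσ (v * u) ζ hζ, map_pow, hτ ζ hζ, ← pow_mul]
        rw [pow_eq_pow_mod (k * (u : ZMod (Nat.card G)).val) hζ]
        congr 1
        rw [Units.val_mul, ZMod.val_mul, hv, ZMod.coe_unitOfCoprime, ZMod.val_natCast]
        rw [Nat.mod_mul_mod]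
    obtain ⟨j, hj⟩ := int_of_fixed (Nat.card G) hn P hmemP hintP hfix
    have hP0 : P ≠ 0 := by
      rw [hP, Finset.prod_ne_zero_iff]
      intro u _
      exact (map_ne_zero_iff (σ u) (σ u).injective).mpr (hne z hz)
    have hj0 : j ≠ 0 := by
      rintro rfl
      exact hP0 (by simpa using hj)
    have hPdiv : Cfsg.MemLocalRing M (P / (p : ℂ) ^ (h * φ)) := by
      have e : P / (p : ℂ) ^ (h * φ)
          = ∏ u : (ZMod (Nat.card G))ˣ, σ u (μ z) / (p : ℂ) ^ h := by
        rw [Finset.prod_div_distrib, Finset.prod_const, Finset.card_univ, ← pow_mul, hP]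
      rw [e]
      refine Finset.prod_induction _ (fun x => Cfsg.MemLocalRing M x)
        (fun a b ha hb => Helper77.memLocalRing_mul hMm ha hb) (Helper77.memLocalRing_one hMm)
        (fun u _ => ?_)
      rw [hσμ u z hz]
      exact hdiv _ (hZ z hz _)
    rw [hj] at hPdiv
    have hdvd := int_dvd_of_memLocalRing hM (h * φ) j hPdiv
    have hle : (p : ℤ) ^ (h * φ) ≤ |j| :=
      Int.le_of_dvd (abs_pos.mpr hj0) ((dvd_abs _ _).mpr hdvd)
    rw [hj, Complex.norm_intCast]
    have : (((p : ℤ) ^ (h * φ) : ℤ) : ℝ) ≤ ((|j| : ℤ) : ℝ) := by exact_mod_cast hle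
    simpa using this
  -- AM–GM over `Z × units`
  have hone : 1 ≤ ∏ x ∈ Z ×ˢ (Finset.univ : Finset (ZMod (Nat.card G))ˣ),
      ‖σ x.2 (μ x.1)‖ / (p : ℝ) ^ h := by
    rw [Finset.prod_product]
    have h1 : ∀ z ∈ Z, (1 : ℝ) ≤ ∏ u : (ZMod (Nat.card G))ˣ, ‖σ u (μ z)‖ / (p : ℝ) ^ h := by
      intro z hz
      rw [Finset.prod_div_distrib, Finset.prod_const, Finset.card_univ, ← pow_mul, ← norm_prod,
        one_le_div (pow_pos hpR _)]
      exact hprod z hz
    calc (1 : ℝ) = ∏ z ∈ Z, (1 : ℝ) := by simp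
      _ ≤ ∏ z ∈ Z, ∏ u : (ZMod (Nat.card G))ˣ, ‖σ u (μ z)‖ / (p : ℝ) ^ h :=
        Finset.prod_le_prod (fun _ _ => zero_le_one) h1
  have key := card_le_sum_of_one_le_prod (Z ×ˢ (Finset.univ : Finset (ZMod (Nat.card G))ˣ))
    (fun x => ‖σ x.2 (μ x.1)‖ / (p : ℝ) ^ h) (fun x _ => by positivity) hone
  -- reindex the double sum
  have hsum : ∀ u : (ZMod (Nat.card G))ˣ, ∑ z ∈ Z, ‖σ u (μ z)‖ / (p : ℝ) ^ h
      = (∑ z ∈ Z, ‖μ z‖) / (p : ℝ) ^ h := by
    intro u
    rw [Finset.sum_div]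
    have hcop : Nat.Coprime (Nat.card G) (u : ZMod (Nat.card G)).val :=
      (ZMod.val_coe_unit_coprime u).symm
    have hinj : Function.Injective (fun z : G => z ^ (u : ZMod (Nat.card G)).val) :=
      (powCoprime hcop).injective
    have himg : Z.image (fun z : G => z ^ (u : ZMod (Nat.card G)).val) = Z := by
      apply Finset.eq_of_subset_of_card_le
      · intro w hw
        rw [Finset.mem_image] at hw
        obtain ⟨z, hz, rfl⟩ := hw
        exact hZ z hz _
      · rw [Finset.card_image_of_injective _ hinj]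
    have h2 : ∑ z ∈ Z, ‖σ u (μ z)‖ / (p : ℝ) ^ h
        = ∑ z ∈ Z, ‖μ (z ^ (u : ZMod (Nat.card G)).val)‖ / (p : ℝ) ^ h :=
      Finset.sum_congr rfl fun z hz => by rw [hσμ u z hz]
    rw [h2]
    conv_rhs => rw [← himg]
    rw [Finset.sum_image (fun a _ b _ hab => hinj hab)]
  rw [Finset.sum_product, Finset.card_product, Finset.sum_comm,
    Finset.sum_congr rfl (fun u _ => hsum u), Finset.sum_const, Finset.card_univ,
    nsmul_eq_mul] at key
  have hφpos : (0 : ℝ) < (Fintype.card (ZMod (Nat.card G))ˣ : ℝ) := by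
    exact_mod_cast Fintype.card_pos
  push_cast at key
  have h3 : (Z.card : ℝ) ≤ (∑ z ∈ Z, ‖μ z‖) / (p : ℝ) ^ h := by
    rw [mul_comm] at key
    exact le_of_mul_le_mul_left key hφpos
  rwa [le_div_iff₀ (pow_pos hpR _)] at h3

omit [Group G] in
/-- **Weighted Bessel inequality.**  Let `A i` (`i ∈ Z`) be functions with
`⟨A i, χ⟩ = ⟨A i, A i⟩`, pairwise orthogonal outside a symmetric relation each of whose classes
in `Z` has at most `R` members.  Then `Σ_i ‖A i‖² ≤ R ‖χ‖²`. -/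
theorem weighted_bessel {ι : Type*} (Z : Finset ι) (A : ι → G → ℂ) (χ : G → ℂ) (R : ℕ)
    (hR : 0 < R) (rel : ι → ι → Prop) (hsymm : ∀ i j, rel i j → rel j i)
    (h1 : ∀ i ∈ Z, ∑ g : G, A i g * conj (χ g) = ∑ g : G, A i g * conj (A i g))
    (h2 : ∀ i ∈ Z, ∀ j ∈ Z, ¬ rel i j → ∑ g : G, A i g * conj (A j g) = 0)
    (h3 : ∀ i ∈ Z, ∀ s : Finset ι, s ⊆ Z → (∀ j ∈ s, rel i j) → s.card ≤ R) :
    ∑ i ∈ Z, ∑ g : G, Complex.normSq (A i g) ≤ (R : ℝ) * ∑ g : G, Complex.normSq (χ g) := by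
  classical
  obtain ⟨n, hn⟩ : ∃ n : ι → ℝ, n = fun i => ∑ g : G, Complex.normSq (A i g) := ⟨_, rfl⟩
  obtain ⟨I, hI⟩ : ∃ I : ι → ι → ℂ, I = fun i j => ∑ g : G, A i g * conj (A j g) := ⟨_, rfl⟩
  have hn0 : ∀ i, 0 ≤ n i := by
    intro i
    rw [hn]
    exact Finset.sum_nonneg fun g _ => Complex.normSq_nonneg _
  have hIii : ∀ i, (I i i).re = n i := by
    intro i
    rw [hI, hn]
    simp only
    rw [Complex.re_sum]
    refine Finset.sum_congr rfl fun g _ => ?_
    rw [Complex.mul_conj, Complex.ofReal_re]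
  have hIre : ∀ i j, (I i j).re ≤ (n i + n j) / 2 := by
    intro i j
    rw [hI, hn]
    simp only
    rw [Complex.re_sum, ← Finset.sum_add_distrib, Finset.sum_div]
    refine Finset.sum_le_sum fun g _ => ?_
    have h := Complex.normSq_nonneg (A i g - A j g)
    rw [Complex.normSq_sub] at h
    linarith
  obtain ⟨S, hS⟩ : ∃ S : G → ℂ, S = fun g => ∑ i ∈ Z, A i g := ⟨_, rfl⟩
  obtain ⟨t, ht⟩ : ∃ t : ℝ, t = ∑ i ∈ Z, n i := ⟨_, rfl⟩
  obtain ⟨c, hc⟩ : ∃ c : ℝ, c = ∑ g : G, Complex.normSq (χ g) := ⟨_, rfl⟩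
  have ht0 : 0 ≤ t := by
    rw [ht]
    exact Finset.sum_nonneg fun i _ => hn0 i
  have hRr : (0 : ℝ) < (R : ℝ) := by exact_mod_cast hR
  -- (1) the squared norm of the sum
  have hSS : ∑ g : G, Complex.normSq (S g) ≤ (R : ℝ) * t := by
    have e1 : ∑ g : G, Complex.normSq (S g) = ∑ i ∈ Z, ∑ j ∈ Z, (I i j).re := by
      have h4 : ∀ g : G, Complex.normSq (S g)
          = ∑ i ∈ Z, ∑ j ∈ Z, (A i g * conj (A j g)).re := by
        intro g
        rw [← Complex.ofReal_re (Complex.normSq (S g)), ← Complex.mul_conj, hS]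
        simp only
        rw [map_sum, Finset.sum_mul_sum, Complex.re_sum]
        refine Finset.sum_congr rfl fun i _ => ?_
        rw [Complex.re_sum]
      rw [Finset.sum_congr rfl (fun g _ => h4 g), Finset.sum_comm]
      refine Finset.sum_congr rfl fun i _ => ?_
      rw [Finset.sum_comm]
      refine Finset.sum_congr rfl fun j _ => ?_
      rw [hI]
      simp only
      rw [Complex.re_sum]
    have e2 : ∀ i ∈ Z, ∑ j ∈ Z, (I i j).re ≤ ∑ j ∈ Z.filter (rel i), (n i + n j) / 2 := by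
      intro i hi
      rw [← Finset.sum_filter_add_sum_filter_not Z (rel i)]
      have hz : ∑ j ∈ Z.filter (fun j => ¬ rel i j), (I i j).re = 0 := by
        refine Finset.sum_eq_zero fun j hj => ?_
        rw [Finset.mem_filter] at hj
        have := h2 i hi j hj.1 hj.2
        rw [hI]
        simp only
        rw [this, Complex.zero_re]
      rw [hz, add_zero]
      exact Finset.sum_le_sum fun j _ => hIre i j
    have e3 : ∑ i ∈ Z, ∑ j ∈ Z.filter (rel i), n i / 2 ≤ (R : ℝ) * t / 2 := by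
      have : ∀ i ∈ Z, ∑ j ∈ Z.filter (rel i), n i / 2 ≤ (R : ℝ) * (n i / 2) := by
        intro i hi
        rw [Finset.sum_const, nsmul_eq_mul]
        have hcard : ((Z.filter (rel i)).card : ℝ) ≤ (R : ℝ) := by
          exact_mod_cast h3 i hi _ (Finset.filter_subset _ _)
            (fun j hj => (Finset.mem_filter.mp hj).2)
        exact mul_le_mul_of_nonneg_right hcard (by have := hn0 i; linarith)
      calc ∑ i ∈ Z, ∑ j ∈ Z.filter (rel i), n i / 2 ≤ ∑ i ∈ Z, (R : ℝ) * (n i / 2) :=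
            Finset.sum_le_sum this
        _ = (R : ℝ) * t / 2 := by
            rw [← Finset.mul_sum, ← Finset.sum_div, ← ht]
            ring
    have e4 : ∑ i ∈ Z, ∑ j ∈ Z.filter (rel i), n j / 2 ≤ (R : ℝ) * t / 2 := by
      have e5 : ∑ i ∈ Z, ∑ j ∈ Z.filter (rel i), n j / 2
          = ∑ j ∈ Z, ∑ i ∈ Z.filter (fun i => rel i j), n j / 2 := by
        simp only [Finset.sum_filter]
        exact Finset.sum_comm
      rw [e5]
      have : ∀ j ∈ Z, ∑ i ∈ Z.filter (fun i => rel i j), n j / 2 ≤ (R : ℝ) * (n j / 2) := by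
        intro j hj
        rw [Finset.sum_const, nsmul_eq_mul]
        have hcard : ((Z.filter (fun i => rel i j)).card : ℝ) ≤ (R : ℝ) := by
          exact_mod_cast h3 j hj _ (Finset.filter_subset _ _)
            (fun i hi => hsymm i j (Finset.mem_filter.mp hi).2)
        exact mul_le_mul_of_nonneg_right hcard (by have := hn0 j; linarith)
      calc ∑ j ∈ Z, ∑ i ∈ Z.filter (fun i => rel i j), n j / 2 ≤ ∑ j ∈ Z, (R : ℝ) * (n j / 2) :=
            Finset.sum_le_sum this
        _ = (R : ℝ) * t / 2 := by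
            rw [← Finset.mul_sum, ← Finset.sum_div, ← ht]
            ring
    calc ∑ g : G, Complex.normSq (S g) = ∑ i ∈ Z, ∑ j ∈ Z, (I i j).re := e1
      _ ≤ ∑ i ∈ Z, ∑ j ∈ Z.filter (rel i), (n i + n j) / 2 := Finset.sum_le_sum e2
      _ = ∑ i ∈ Z, ∑ j ∈ Z.filter (rel i), n i / 2
            + ∑ i ∈ Z, ∑ j ∈ Z.filter (rel i), n j / 2 := by
          rw [← Finset.sum_add_distrib]
          refine Finset.sum_congr rfl fun i _ => ?_
          rw [← Finset.sum_add_distrib]
          refine Finset.sum_congr rfl fun j _ => ?_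
          ring
      _ ≤ (R : ℝ) * t / 2 + (R : ℝ) * t / 2 := add_le_add e3 e4
      _ = (R : ℝ) * t := by ring
  -- (2) the inner product of the sum with `χ`
  have hSχ : ∑ g : G, (S g * conj (χ g)).re = t := by
    rw [← Complex.re_sum]
    have e1 : ∑ g : G, S g * conj (χ g) = ∑ i ∈ Z, ∑ g : G, A i g * conj (χ g) := by
      rw [hS]
      simp only [Finset.sum_mul]
      exact Finset.sum_comm
    rw [e1, Finset.sum_congr rfl (fun i hi => h1 i hi), Complex.re_sum, ht]
    refine Finset.sum_congr rfl fun i _ => ?_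
    have := hIii i
    rw [hI] at this
    exact this
  -- (3) expand `‖S - R χ‖² ≥ 0`
  have hpos : 0 ≤ ∑ g : G, Complex.normSq (S g - ((R : ℝ) : ℂ) * χ g) :=
    Finset.sum_nonneg fun g _ => Complex.normSq_nonneg _
  have hexp : ∑ g : G, Complex.normSq (S g - ((R : ℝ) : ℂ) * χ g)
      = ∑ g : G, Complex.normSq (S g) + (R : ℝ) ^ 2 * c - 2 * (R : ℝ) * t := by
    have h4 : ∀ g : G, Complex.normSq (S g - ((R : ℝ) : ℂ) * χ g)
        = Complex.normSq (S g) + (R : ℝ) ^ 2 * Complex.normSq (χ g)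
          - 2 * (R : ℝ) * (S g * conj (χ g)).re := by
      intro g
      rw [Complex.normSq_sub, Complex.normSq_mul, Complex.normSq_ofReal, map_mul,
        Complex.conj_ofReal]
      have e : (S g * (((R : ℝ) : ℂ) * conj (χ g))).re = (R : ℝ) * (S g * conj (χ g)).re := by
        rw [show S g * (((R : ℝ) : ℂ) * conj (χ g)) = ((R : ℝ) : ℂ) * (S g * conj (χ g)) by ring,
          Complex.re_ofReal_mul]
      rw [e]
      ring
    rw [Finset.sum_congr rfl (fun g _ => h4 g), Finset.sum_sub_distrib, Finset.sum_add_distrib,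
      ← Finset.mul_sum, ← Finset.mul_sum, hSχ, ← hc]
  rw [hexp] at hpos
  have hfinal : t ≤ (R : ℝ) * c := by nlinarith
  rw [ht, hn, hc] at hfinal
  exact hfinal

end Cfsg.Agent.Helper75
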