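import Cfsg.Agent.Helper75.Contrib4

/-!
# Values of induced section functions (helper75)

Let `H = C_G(y)` for a `p`-element `y` and `F` a class function of `H`.  The class function of
`G` induced from `y s ↦ F(s)` (`s` `p`-regular) takes the value `F(s)` at `y s`, the value
`F(g⁻¹ s g)` at `g y g⁻¹ s`, and vanishes on the sections of `p`-elements not conjugate to `y`.
Together with Frobenius reciprocity against an arbitrary class function.
-/

set_option autoImplicit false
open Cfsg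
open scoped ComplexConjugate

namespace Cfsg.Agent.Helper75

universe u

variable {G : Type u} [Group G] [Fintype G]

/-- Frobenius reciprocity for the class function induced from a section function, against an
arbitrary class function. -/
theorem sum_indFun_secFun_mul (H : Subgroup G) [Fintype H] (p : ℕ) (y : G) (hyH : y ∈ H)
    (F : H → ℂ) {A : G → ℂ} (hA : Cfsg.IsClassFunction G A) :
    ∑ g : G, Cfsg.indFun H (secFun p (⟨y, hyH⟩ : H) F) g * A g
      = (H.index : ℂ) * ∑ s : H, if p ∣ orderOf s then 0 else F s * A (y * (s : G)) := by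
  classical
  have h1 := Helper73.sum_mul_indFun H hA (secFun p (⟨y, hyH⟩ : H) F)
  have h2 : ∑ g : G, Cfsg.indFun H (secFun p (⟨y, hyH⟩ : H) F) g * A g
      = ∑ g : G, A g * Cfsg.indFun H (secFun p (⟨y, hyH⟩ : H) F) g :=
    Finset.sum_congr rfl fun g _ => mul_comm _ _
  rw [h2, h1]
  congr 1
  rw [← Equiv.sum_comp (Equiv.mulLeft (⟨y, hyH⟩ : H))]
  refine Finset.sum_congr rfl fun s _ => ?_
  rw [Equiv.coe_mulLeft, secFun_mul_left]
  by_cases hs : p ∣ orderOf s
  · rw [if_pos hs, if_pos hs, mul_zero]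
  · rw [if_neg hs, if_neg hs, mul_comm]
    rfl

/-- The value of the induced section function on its own section. -/
theorem indFun_secFun_self (H : Subgroup G) [Fintype H] {p : ℕ} [Fact p.Prime] (y : G)
    (hyH : y ∈ H) (hcent : ∀ h : H, y * (h : G) = (h : G) * y)
    (hHC : ∀ g : G, y * g = g * y → g ∈ H) (hyp : ∃ k : ℕ, orderOf y = p ^ k)
    {F : H → ℂ} (hF : Cfsg.IsClassFunction H F) (s : H) (hs : ¬ p ∣ orderOf s) :
    Cfsg.indFun H (secFun p (⟨y, hyH⟩ : H) F) (y * (s : G)) = F s := by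
  classical
  obtain ⟨z, hz⟩ : ∃ z : H, z = (⟨y, hyH⟩ : H) := ⟨_, rfl⟩
  rw [← hz]
  have hzc : ∀ h : H, z * h = h * z := by
    intro h
    apply Subtype.ext
    rw [hz]
    exact hcent h
  have hΦcl := secFun_isClassFunction p z hzc hF
  have hcardH : (Nat.card H : ℂ) ≠ 0 := by
    have : 0 < Nat.card H := Nat.card_pos
    exact_mod_cast this.ne'
  have hpp : ∀ c : H, ¬ p ∣ orderOf (z⁻¹ * c) → Cfsg.IsPPart p (c : G) y := by
    intro c hc
    have e : (c : G) = y * ((z⁻¹ * c : H) : G) := by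
      rw [hz]
      simp
    rw [e]
    exact Helper16.isPPart_mul (hcent (z⁻¹ * c)) hyp (by rw [Subgroup.orderOf_coe]; exact hc)
  have hg : y * (s : G) = ((z * s : H) : G) := by
    rw [hz]
    rfl
  have hp2 : Cfsg.IsPPart p (y * (s : G)) y :=
    Helper16.isPPart_mul (hcent s) hyp (by rw [Subgroup.orderOf_coe]; exact hs)
  have hterm : ∀ x : G, Cfsg.extendByZero H (secFun p z F) (x⁻¹ * (y * (s : G)) * x)
      = Cfsg.extendByZero H (fun _ : H => F s) x := by
    intro x
    by_cases ht : x ∈ H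
    · rw [Helper3.extendByZero_of_mem H _ ht]
      have e : x⁻¹ * (y * (s : G)) * x = (((⟨x, ht⟩ : H)⁻¹ * (z * s)
          * ((⟨x, ht⟩ : H)⁻¹)⁻¹ : H) : G) := by
        rw [hg]
        simp only [Subgroup.coe_mul, Subgroup.coe_inv, inv_inv]
      rw [e, Helper3.extendByZero_coe, hΦcl, secFun_mul_left, if_neg hs]
    · rw [Helper3.extendByZero_of_not_mem H _ ht]
      by_cases hmem : x⁻¹ * (y * (s : G)) * x ∈ H
      · rw [Helper3.extendByZero_of_mem H _ hmem, secFun_apply]
        by_cases hdiv : p ∣ orderOf (z⁻¹ * (⟨x⁻¹ * (y * (s : G)) * x, hmem⟩ : H))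
        · rw [if_pos hdiv]
        · exfalso
          apply ht
          have hp1 := hpp ⟨x⁻¹ * (y * (s : G)) * x, hmem⟩ hdiv
          have hp3 := Helper16.isPPart_conj hp2 x⁻¹
          rw [inv_inv] at hp3
          have e2 := Helper16.isPPart_unique hp1 hp3
          apply hHC
          calc y * x = x * (x⁻¹ * y * x) := by group
            _ = x * y := by rw [← e2]
      · rw [Helper3.extendByZero_of_not_mem H _ hmem]
  unfold Cfsg.indFun
  rw [Finset.sum_congr rfl (fun x _ => hterm x), Helper3.sum_extendByZero, Finset.sum_const,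
    Finset.card_univ, nsmul_eq_mul, ← Nat.card_eq_fintype_card, ← mul_assoc,
    inv_mul_cancel₀ hcardH, one_mul]

/-- The induced section function vanishes on the sections of `p`-elements not conjugate to `y`. -/
theorem indFun_secFun_eq_zero_of_not_conj (H : Subgroup G) [Fintype H] {p : ℕ} [Fact p.Prime]
    (y : G) (hyH : y ∈ H) (hcent : ∀ h : H, y * (h : G) = (h : G) * y)
    (hyp : ∃ k : ℕ, orderOf y = p ^ k) (F : H → ℂ) (y' s' : G)
    (hy'p : ∃ k : ℕ, orderOf y' = p ^ k) (hcomm : Commute y' s') (hs' : ¬ p ∣ orderOf s')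
    (hnc : ∀ x : G, x⁻¹ * y' * x ≠ y) :
    Cfsg.indFun H (secFun p (⟨y, hyH⟩ : H) F) (y' * s') = 0 := by
  classical
  obtain ⟨z, hz⟩ : ∃ z : H, z = (⟨y, hyH⟩ : H) := ⟨_, rfl⟩
  rw [← hz]
  have hpp : ∀ c : H, ¬ p ∣ orderOf (z⁻¹ * c) → Cfsg.IsPPart p (c : G) y := by
    intro c hc
    have e : (c : G) = y * ((z⁻¹ * c : H) : G) := by
      rw [hz]
      simp
    rw [e]
    exact Helper16.isPPart_mul (hcent (z⁻¹ * c)) hyp (by rw [Subgroup.orderOf_coe]; exact hc)
  have hp2 : Cfsg.IsPPart p (y' * s') y' := Helper16.isPPart_mul hcomm hy'p hs'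
  unfold Cfsg.indFun
  rw [Finset.sum_eq_zero, mul_zero]
  intro x _
  by_cases hmem : x⁻¹ * (y' * s') * x ∈ H
  · rw [Helper3.extendByZero_of_mem H _ hmem, secFun_apply]
    by_cases hdiv : p ∣ orderOf (z⁻¹ * (⟨x⁻¹ * (y' * s') * x, hmem⟩ : H))
    · rw [if_pos hdiv]
    · exfalso
      have hp1 := hpp ⟨x⁻¹ * (y' * s') * x, hmem⟩ hdiv
      have hp3 := Helper16.isPPart_conj hp2 x⁻¹
      rw [inv_inv] at hp3
      exact hnc x (Helper16.isPPart_unique hp1 hp3).symm
  · rw [Helper3.extendByZero_of_not_mem H _ hmem]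

/-- The value of the induced section function on a conjugate section. -/
theorem indFun_secFun_conj (H : Subgroup G) [Fintype H] {p : ℕ} [Fact p.Prime] (y : G)
    (hyH : y ∈ H) (hcent : ∀ h : H, y * (h : G) = (h : G) * y)
    (hHC : ∀ g : G, y * g = g * y → g ∈ H) (hyp : ∃ k : ℕ, orderOf y = p ^ k)
    {F : H → ℂ} (hF : Cfsg.IsClassFunction H F) (g₀ s' : G) (hs' : ¬ p ∣ orderOf s')
    (hm : g₀⁻¹ * s' * g₀ ∈ H) :
    Cfsg.indFun H (secFun p (⟨y, hyH⟩ : H) F) (g₀ * y * g₀⁻¹ * s')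
      = F ⟨g₀⁻¹ * s' * g₀, hm⟩ := by
  have e : g₀ * y * g₀⁻¹ * s' = g₀ * (y * (g₀⁻¹ * s' * g₀)) * g₀⁻¹ := by group
  rw [e, Helper3.indFun_isClassFunction H _ _ g₀]
  have hord : ¬ p ∣ orderOf (⟨g₀⁻¹ * s' * g₀, hm⟩ : H) := by
    rw [← Subgroup.orderOf_coe]
    have h1 := (MulAut.conj g₀⁻¹).orderOf_eq s'
    rw [MulAut.conj_apply, inv_inv] at h1
    show ¬ p ∣ orderOf (g₀⁻¹ * s' * g₀)
    rw [h1]
    exact hs'
  exact indFun_secFun_self H y hyH hcent hHC hyp hF ⟨g₀⁻¹ * s' * g₀, hm⟩ hord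

end Cfsg.Agent.Helper75
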