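import Cfsg.Agent.Helper75.SecInd
import Cfsg.Agent.Helper75.BlockTransport

/-!
# Orthogonality of subsection parts (helper75)

For `H = C_G(y)`, `y` a `p`-element, and a block `b` of `H`, `secPart H y b p χ` is the class
function of `G` supported on the `p`-section of `y` whose value at `y s` is the `b`-part of
`c ↦ χ(y c)` at `s`.  Its inner products with `χ` and with itself are both the contribution
`contrib H y b p d χ χ` (up to the factor `|G| / p^d`), and the parts belonging to different
subsections are orthogonal.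
-/

set_option autoImplicit false
open Cfsg
open scoped ComplexConjugate

namespace Cfsg.Agent.Helper75

universe u

/-- Block parts for different blocks are orthogonal on `p`-regular elements (transported along a
group isomorphism). -/
theorem pregInner_blockPart_comp_eq_zero {H K : Type u} [Group H] [Group K] [Fintype H]
    [Fintype K] {p : ℕ} {M : Ideal Cfsg.AlgInt} (hM : Cfsg.IsPModular p M) (σ : K ≃* H)
    {b : Set (Cfsg.IrrCharacter H)} {b' : Set (Cfsg.IrrCharacter K)} (hb : Cfsg.IsPBlock M b)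
    (hb' : Cfsg.IsPBlock M b') (hne : b' ≠ irrComp σ '' b) (f₁ : H → ℂ) (f₂ : K → ℂ) :
    Helper77.pregInner p (Cfsg.blockPart b' f₂) (fun s : K => Cfsg.blockPart b f₁ (σ s)) = 0 := by
  classical
  have := Fintype.ofFinite (Cfsg.IrrCharacter H)
  have := Fintype.ofFinite (Cfsg.IrrCharacter K)
  have hMm := hM.2.1
  have h1 : Cfsg.blockPart b' f₂
      = fun x => ∑ θ ∈ Finset.univ.filter (fun θ : Cfsg.IrrCharacter K => θ ∈ b'),
          Cfsg.classInner f₂ (θ : K → ℂ) * (θ : K → ℂ) x := by
    funext x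
    exact blockPart_filter_apply b' _ x
  have h2 : (fun s : K => Cfsg.blockPart b f₁ (σ s))
      = fun x => ∑ θ ∈ (Finset.univ.filter (fun θ : Cfsg.IrrCharacter H => θ ∈ b)).image
          (irrComp σ),
          Cfsg.classInner f₁ ((irrComp σ.symm θ : Cfsg.IrrCharacter H) : H → ℂ)
            * (θ : K → ℂ) x := by
    funext x
    rw [blockPart_filter_apply, Finset.sum_image (fun θ₁ _ θ₂ _ h => irrComp_injective σ h)]
    refine Finset.sum_congr rfl fun θ _ => ?_
    rw [irrComp_symm_irrComp_gen]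
    rfl
  rw [h1, h2, pregInner_sum_sum']
  refine Finset.sum_eq_zero fun θ' hθ' => Finset.sum_eq_zero fun θ hθ => ?_
  rw [Finset.mem_filter] at hθ'
  rw [Finset.mem_image] at hθ
  obtain ⟨θ₀, hθ₀, rfl⟩ := hθ
  rw [Finset.mem_filter] at hθ₀
  have hnot : irrComp σ θ₀ ∉ b' := by
    intro hmem
    exact hne (Helper77.block_eq_of_mem hMm hb' (isPBlock_image_irrComp σ hb) hmem
      ⟨θ₀, hθ₀.2, rfl⟩)
  rw [← Helper77.conj_pregInner, Helper77.pregInner_eq_zero hM hb' hnot hθ'.2, map_zero, mul_zero]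

variable {G : Type u} [Group G] [Fintype G]

/-- The part of `χ` at the subsection `(y, b)`, as a class function of `G`. -/
noncomputable def secPart (H : Subgroup G) (y : G) (b : Set (Cfsg.IrrCharacter H)) (p : ℕ)
    (χ : G → ℂ) : G → ℂ := by
  classical exact if hy : y ∈ H then
    Cfsg.indFun H (secFun p (⟨y, hy⟩ : H) (Cfsg.blockPart b (fun c : H => χ (y * c)))) else 0

theorem secPart_eq (H : Subgroup G) {y : G} (hy : y ∈ H) (b : Set (Cfsg.IrrCharacter H)) (p : ℕ)
    (χ : G → ℂ) : secPart H y b p χ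
      = Cfsg.indFun H (secFun p (⟨y, hy⟩ : H) (Cfsg.blockPart b (fun c : H => χ (y * c)))) := by
  unfold secPart
  exact dif_pos hy

theorem secPart_isClassFunction (H : Subgroup G) (y : G) (b : Set (Cfsg.IrrCharacter H)) (p : ℕ)
    (χ : G → ℂ) : Cfsg.IsClassFunction G (secPart H y b p χ) := by
  by_cases hy : y ∈ H
  · rw [secPart_eq H hy]
    exact Helper3.indFun_isClassFunction H _
  · unfold secPart
    rw [dif_neg hy]
    intro g h
    rfl

/-- Inner product of a subsection part with an irreducible character. -/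
theorem sum_secPart_mul_conj (H : Subgroup G) [Fintype H] {p : ℕ} {M : Ideal Cfsg.AlgInt}
    (hM : Cfsg.IsPModular p M) (y : G) (hyH : y ∈ H)
    (hcent : ∀ h : H, y * (h : G) = (h : G) * y)
    {b : Set (Cfsg.IrrCharacter H)} (hb : Cfsg.IsPBlock M b) (d : ℕ)
    (χ ψ : Cfsg.IrrCharacter G) :
    (p : ℂ) ^ d * ∑ g : G, secPart H y b p (χ : G → ℂ) g * conj ((ψ : G → ℂ) g)
      = (Nat.card G : ℂ) * contrib H y b p d (χ : G → ℂ) (ψ : G → ℂ) := by
  have hp := hM.1
  have hcardH : (Nat.card H : ℂ) ≠ 0 := by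
    have : 0 < Nat.card H := Nat.card_pos
    exact_mod_cast this.ne'
  have hcl2 : Cfsg.IsClassFunction H (fun s : H => (ψ : G → ℂ) (y * s)) := by
    intro s t
    show (ψ : G → ℂ) (y * ((t * s * t⁻¹ : H) : G)) = (ψ : G → ℂ) (y * (s : G))
    have e : y * ((t * s * t⁻¹ : H) : G) = (t : G) * (y * (s : G)) * (t : G)⁻¹ := by
      simp only [Subgroup.coe_mul, Subgroup.coe_inv]
      have := hcent t
      calc y * ((t : G) * (s : G) * (t : G)⁻¹) = (y * (t : G)) * (s : G) * (t : G)⁻¹ := by
            group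
        _ = ((t : G) * y) * (s : G) * (t : G)⁻¹ := by rw [this]
        _ = (t : G) * (y * (s : G)) * (t : G)⁻¹ := by group
    rw [e, Helper81.irr_conj]
  rw [secPart_eq H hyH, sum_indFun_secFun_mul_conj, pregInner_blockPart_right hM hb _ hcl2]
  unfold contrib
  rw [← Subgroup.card_mul_index H]
  push_cast
  field_simp

/-- Inner product of a subsection part with itself. -/
theorem sum_secPart_mul_conj_self (H : Subgroup G) [Fintype H] {p : ℕ} {M : Ideal Cfsg.AlgInt}
    (hM : Cfsg.IsPModular p M) (y : G) (hyH : y ∈ H)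
    (hcent : ∀ h : H, y * (h : G) = (h : G) * y)
    (hHC : ∀ g : G, y * g = g * y → g ∈ H) (hyp : ∃ k : ℕ, orderOf y = p ^ k)
    (b : Set (Cfsg.IrrCharacter H)) (d : ℕ) (χ : G → ℂ) :
    (p : ℂ) ^ d * ∑ g : G, secPart H y b p χ g * conj (secPart H y b p χ g)
      = (Nat.card G : ℂ) * contrib H y b p d χ χ := by
  have hp := hM.1
  have : Fact p.Prime := ⟨hp⟩
  have hcardH : (Nat.card H : ℂ) ≠ 0 := by
    have : 0 < Nat.card H := Nat.card_pos
    exact_mod_cast this.ne'
  have hcl : Cfsg.IsClassFunction G (fun g => conj (secPart H y b p χ g)) := by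
    intro g x
    show conj (secPart H y b p χ (x * g * x⁻¹)) = conj (secPart H y b p χ g)
    rw [secPart_isClassFunction H y b p χ g x]
  have hF := blockPart_isClassFunction b (fun c : H => χ (y * c))
  have h1 := sum_indFun_secFun_mul H p y hyH (Cfsg.blockPart b (fun c : H => χ (y * c))) hcl
  rw [← secPart_eq H hyH] at h1
  rw [h1]
  have h2 : ∑ s : H, (if p ∣ orderOf s then 0 else
      Cfsg.blockPart b (fun c : H => χ (y * c)) s * conj (secPart H y b p χ (y * (s : G))))
      = Helper77.pregInner p (Cfsg.blockPart b (fun c : H => χ (y * c)))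
          (Cfsg.blockPart b (fun c : H => χ (y * c))) := by
    unfold Helper77.pregInner
    refine Finset.sum_congr rfl fun s _ => ?_
    by_cases hs : p ∣ orderOf s
    · rw [if_pos hs, if_neg (not_not.mpr hs)]
    · rw [if_neg hs, if_pos hs, secPart_eq H hyH,
        indFun_secFun_self H y hyH hcent hHC hyp hF s hs]
  rw [h2]
  unfold contrib
  rw [← Subgroup.card_mul_index H]
  push_cast
  field_simp

/-- **Orthogonality of subsection parts.**  If no element conjugating `y` to `y'` carries the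
block `b` to `b'`, the parts of `χ` at `(y, b)` and `(y', b')` are orthogonal. -/
theorem sum_secPart_mul_conj_eq_zero (H H' : Subgroup G) [Fintype H] [Fintype H'] {p : ℕ}
    {M : Ideal Cfsg.AlgInt} (hM : Cfsg.IsPModular p M) (y y' : G) (hyH : y ∈ H) (hyH' : y' ∈ H')
    (hcent : ∀ h : H, y * (h : G) = (h : G) * y)
    (hcent' : ∀ h : H', y' * (h : G) = (h : G) * y')
    (hHC : ∀ g : G, y * g = g * y → g ∈ H) (hyp : ∃ k : ℕ, orderOf y = p ^ k)
    (hyp' : ∃ k : ℕ, orderOf y' = p ^ k)
    {b : Set (Cfsg.IrrCharacter H)} {b' : Set (Cfsg.IrrCharacter H')}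
    (hb : Cfsg.IsPBlock M b) (hb' : Cfsg.IsPBlock M b')
    (hkey : ∀ g₀ : G, g₀ * y * g₀⁻¹ = y' → ∃ σ : H' ≃* H,
      (∀ s : H', ((σ s : H) : G) = g₀⁻¹ * (s : G) * g₀) ∧ b' ≠ irrComp σ '' b)
    (χ : G → ℂ) :
    ∑ g : G, secPart H' y' b' p χ g * conj (secPart H y b p χ g) = 0 := by
  have hp := hM.1
  have : Fact p.Prime := ⟨hp⟩
  have hcl : Cfsg.IsClassFunction G (fun g => conj (secPart H y b p χ g)) := by
    intro g x
    show conj (secPart H y b p χ (x * g * x⁻¹)) = conj (secPart H y b p χ g)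
    rw [secPart_isClassFunction H y b p χ g x]
  have hF := blockPart_isClassFunction b (fun c : H => χ (y * c))
  have h1 := sum_indFun_secFun_mul H' p y' hyH' (Cfsg.blockPart b' (fun c : H' => χ (y' * c)))
    hcl
  rw [← secPart_eq H' hyH'] at h1
  rw [h1]
  by_cases hconj : ∃ g₀ : G, g₀ * y * g₀⁻¹ = y'
  · obtain ⟨g₀, hg₀⟩ := hconj
    obtain ⟨σ, hσ, hne⟩ := hkey g₀ hg₀
    have h2 : ∑ s : H', (if p ∣ orderOf s then 0 else
        Cfsg.blockPart b' (fun c : H' => χ (y' * c)) s
          * conj (secPart H y b p χ (y' * (s : G))))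
        = Helper77.pregInner p (Cfsg.blockPart b' (fun c : H' => χ (y' * c)))
            (fun s : H' => Cfsg.blockPart b (fun c : H => χ (y * c)) (σ s)) := by
      unfold Helper77.pregInner
      refine Finset.sum_congr rfl fun s _ => ?_
      by_cases hs : p ∣ orderOf s
      · rw [if_pos hs, if_neg (not_not.mpr hs)]
      · rw [if_neg hs, if_pos hs, secPart_eq H hyH, ← hg₀]
        have hm : g₀⁻¹ * (s : G) * g₀ ∈ H := by
          rw [← hσ s]
          exact (σ s).2
        have hs' : ¬ p ∣ orderOf (s : G) := by rwa [Subgroup.orderOf_coe]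
        rw [indFun_secFun_conj H y hyH hcent hHC hyp hF g₀ (s : G) hs' hm]
        congr 3
        exact Subtype.ext (hσ s).symm
    rw [h2, pregInner_blockPart_comp_eq_zero hM σ hb hb' hne, mul_zero]
  · rw [Finset.sum_eq_zero, mul_zero]
    intro s _
    by_cases hs : p ∣ orderOf s
    · rw [if_pos hs]
    · rw [if_neg hs, secPart_eq H hyH,
        indFun_secFun_eq_zero_of_not_conj H y hyH hcent hyp _ y' (s : G) hyp' (hcent' s)
          (by rwa [Subgroup.orderOf_coe]) (fun x hx => hconj ⟨x, by rw [← hx]; group⟩),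
        map_zero, mul_zero]

end Cfsg.Agent.Helper75
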