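import Mathlib
import Cfsg.Agent.Helper48.TSCDefs

set_option autoImplicit false

/-! SUB-CALL TSC (helper48): piece (helper75). -/

namespace Cfsg.Agent.Helper75.TSC

open Module Cfsg Cfsg.Geo Cfsg.Agent.Helper58.TS
open Cfsg.Agent.Helper43 Cfsg.Agent.Helper43.OrthEven Cfsg.Agent.Helper48.TSC

/-- FACM (pure Nat). -/
theorem tsc_fac_minus (q d j c S : ℕ) (hq : 1 ≤ q) (hj : j + 1 ≤ d)
    (h1 : c + q ^ (2 * d - 1) = S + q ^ (2 * d - 1 - j))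
    (h2 : S + q ^ d = q ^ (2 * d - 1) + q ^ (d - 1)) :
    c - q ^ j = q ^ j * ((q ^ (d - j) + 1) * (q ^ (d - j - 1) - 1)) := by
  obtain ⟨a, rfl⟩ : ∃ a, d = j + 1 + a := ⟨d - j - 1, by omega⟩
  have e1 : 2 * (j + 1 + a) - 1 = j + j + a + a + 1 := by omega
  have e2 : 2 * (j + 1 + a) - 1 - j = j + a + a + 1 := by omega
  have e3 : j + 1 + a - 1 = j + a := by omega
  have e4 : j + 1 + a - j = a + 1 := by omega
  have e5 : j + 1 + a - j - 1 = a := by omega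
  have e6 : j + 1 + a = j + a + 1 := by omega
  rw [e2, e1] at h1
  rw [e1, e3, e6] at h2
  rw [e5, e4]
  obtain ⟨x, hx⟩ : ∃ x, x = q ^ a := ⟨_, rfl⟩
  obtain ⟨y, hy⟩ : ∃ y, y = q ^ j := ⟨_, rfl⟩
  have hx1 : 1 ≤ x := by rw [hx]; exact Nat.one_le_pow _ _ hq
  simp only [pow_add, pow_one, ← hx, ← hy] at h1 h2 ⊢
  obtain ⟨k, hk⟩ : ∃ k, x = k + 1 := ⟨x - 1, by omega⟩
  subst hk
  rw [Nat.add_sub_cancel]
  have h4 : c = y * (((k + 1) * q + 1) * k) + y := by linarith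
  rw [h4, Nat.add_sub_cancel]

end Cfsg.Agent.Helper75.TSC
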