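import Mathlib
import Cfsg.Agent.Helper48.TSCDefs

set_option autoImplicit false

/-! SUB-CALL TSC (helper48): piece (helper75). -/

namespace Cfsg.Agent.Helper75.TSC

open Module Cfsg Cfsg.Geo Cfsg.Agent.Helper58.TS
open Cfsg.Agent.Helper43 Cfsg.Agent.Helper43.OrthEven Cfsg.Agent.Helper48.TSC

/-- FIB (pure). -/
theorem tsc_fib {F : Type*} [Field F] [Fintype F] {V : Type*} [AddCommGroup V] [Module F V]
    [Finite V] (P : V → Prop) (hP : ∀ (c : F) (x : V), c ≠ 0 → P x → P (c • x))
    (φ : V →ₗ[F] F) :
    Nat.card {x : V // P x} =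
      Nat.card {x : V // P x ∧ φ x = 0} +
        (Fintype.card F - 1) * Nat.card {x : V // P x ∧ φ x = 1} := by
  classical
  have h1 : Nat.card {x : V // P x} =
      Nat.card {x : V // P x ∧ φ x = 0} + Nat.card {x : V // P x ∧ ¬ φ x = 0} := by
    rw [Nat.card_congr (Equiv.sumCompl (fun x : {x : V // P x} => φ x.1 = 0)).symm, Nat.card_sum,
      Nat.card_congr (Equiv.subtypeSubtypeEquivSubtypeInter P (fun x => φ x = 0)),
      Nat.card_congr (Equiv.subtypeSubtypeEquivSubtypeInter P (fun x => ¬ φ x = 0))]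
  have h2 : Nat.card {x : V // P x ∧ ¬ φ x = 0} =
      (Fintype.card F - 1) * Nat.card {x : V // P x ∧ φ x = 1} := by
    have e : {x : V // P x ∧ ¬ φ x = 0} ≃ Fˣ × {x : V // P x ∧ φ x = 1} :=
      { toFun := fun x => (Units.mk0 (φ x.1) x.2.2,
          ⟨(φ x.1)⁻¹ • x.1, hP _ _ (inv_ne_zero x.2.2) x.2.1, by
            rw [map_smul, smul_eq_mul, inv_mul_cancel₀ x.2.2]⟩)
        invFun := fun y => ⟨(y.1 : F) • y.2.1, hP _ _ y.1.ne_zero y.2.2.1, by
          rw [map_smul, y.2.2.2, smul_eq_mul, mul_one]
          exact y.1.ne_zero⟩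
        left_inv := fun x => by
          apply Subtype.ext
          simp only [Units.val_mk0]
          rw [smul_smul, mul_inv_cancel₀ x.2.2, one_smul]
        right_inv := fun y => by
          apply Prod.ext
          · apply Units.ext
            simp only [Units.val_mk0]
            rw [map_smul, y.2.2.2, smul_eq_mul, mul_one]
          · apply Subtype.ext
            simp only
            rw [map_smul, y.2.2.2, smul_eq_mul, mul_one, smul_smul,
              inv_mul_cancel₀ y.1.ne_zero, one_smul] }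
    rw [Nat.card_congr e, Nat.card_prod, Nat.card_eq_fintype_card, Fintype.card_units]
  rw [h1, h2]

end Cfsg.Agent.Helper75.TSC
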