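import Cfsg.Agent.Helper75.NilpPrincipal
import Cfsg.Agent.Helper77.BlockRank

/-!
# Principal blocks for two primes

* `card_mul_pqRegular`: if the principal `p`-block and the principal `q`-block have only the
  trivial character in common, then `|G| · #{g : p'- and q'-element} = #{p'-elements} · #{q'-elements}`.
* `exists_common_nontrivial`: if `p ≠ q` divide `|G|` and `G` has no element of order `pq`, the two
  principal blocks have a common nontrivial character.
-/

set_option autoImplicit false
open Cfsg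
open scoped ComplexConjugate

namespace Cfsg.Agent.Helper75

universe u

variable {G : Type u} [Group G] [Fintype G]

theorem pregInner_trivIrr_right (q : ℕ) (ψ : G → ℂ) :
    Helper77.pregInner q ψ (Helper81.trivIrr G : G → ℂ) = ∑ g : G, ψ g * pregInd q G g := by
  unfold Helper77.pregInner pregInd
  refine Finset.sum_congr rfl fun g _ => ?_
  rw [Helper81.trivIrr_apply]
  split_ifs <;> simp

theorem pregInner_trivIrr_trivIrr (p : ℕ) :
    Helper77.pregInner p (Helper81.trivIrr G : G → ℂ) (Helper81.trivIrr G : G → ℂ)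
      = (pregCard p G : ℂ) := by
  rw [← sum_ite_pRegular]
  unfold Helper77.pregInner
  refine Finset.sum_congr rfl fun g _ => ?_
  rw [Helper81.trivIrr_apply]
  split_ifs <;> simp

theorem card_mul_pqRegular {p q : ℕ} [Fact p.Prime] [Fact q.Prime] {Mp Mq : Ideal Cfsg.AlgInt}
    (hMp : Cfsg.IsPModular p Mp) (hMq : Cfsg.IsPModular q Mq)
    (h : ∀ χ : Cfsg.IrrCharacter G, χ ∈ Cfsg.principalBlock Mp G → χ ∈ Cfsg.principalBlock Mq G →
      (χ : G → ℂ) = fun _ => 1) :
    (Nat.card G : ℂ) * ∑ g : G, pregInd p G g * pregInd q G g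
      = (pregCard p G : ℂ) * (pregCard q G : ℂ) := by
  classical
  haveI : Fintype (Cfsg.IrrCharacter G) := Fintype.ofFinite _
  haveI := hMp.2.1.isPrime
  have hq' := hMq.2.1.isPrime
  have h1 := Helper77.card_smul_pRegularPart_eq_sum hMp (B := Cfsg.principalBlock Mp G)
    ⟨Helper81.trivIrr G, rfl⟩ (χ := Helper81.trivIrr G) Helper81.trivIrr_mem_principalBlock
  rw [pRegularPart_trivIrr] at h1
  have h2 : ∀ g : G, (Nat.card G : ℂ) * (pregInd p G g * pregInd q G g)
      = ∑ ψ ∈ Finset.univ.filter (fun ψ : Cfsg.IrrCharacter G => ψ ∈ Cfsg.principalBlock Mp G),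
          Helper77.pregInner p (Helper81.trivIrr G : G → ℂ) (ψ : G → ℂ)
            * ((ψ : G → ℂ) g * pregInd q G g) := by
    intro g
    have := congrFun h1 g
    simp only [Pi.smul_apply, smul_eq_mul, Finset.sum_apply] at this
    rw [← mul_assoc, this, Finset.sum_mul]
    refine Finset.sum_congr rfl fun ψ _ => ?_
    ring
  rw [Finset.mul_sum, Finset.sum_congr rfl fun g _ => h2 g, Finset.sum_comm]
  have h3 : ∀ ψ ∈ Finset.univ.filter
      (fun ψ : Cfsg.IrrCharacter G => ψ ∈ Cfsg.principalBlock Mp G),
      ∑ g : G, Helper77.pregInner p (Helper81.trivIrr G : G → ℂ) (ψ : G → ℂ)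
            * ((ψ : G → ℂ) g * pregInd q G g)
        = Helper77.pregInner p (Helper81.trivIrr G : G → ℂ) (ψ : G → ℂ)
            * Helper77.pregInner q (ψ : G → ℂ) (Helper81.trivIrr G : G → ℂ) := by
    intro ψ _
    rw [← Finset.mul_sum, pregInner_trivIrr_right]
  rw [Finset.sum_congr rfl h3, Finset.sum_eq_single (Helper81.trivIrr G)]
  · rw [pregInner_trivIrr_trivIrr, pregInner_trivIrr_trivIrr]
  · intro ψ hψ hne
    rw [Finset.mem_filter] at hψ
    have hψq : ψ ∉ Cfsg.principalBlock Mq G := by
      intro hq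
      apply hne
      apply Subtype.ext
      exact h ψ hψ.2 hq
    haveI := hq'
    rw [Helper77.pregInner_eq_zero hMq (B := Cfsg.principalBlock Mq G)
      ⟨Helper81.trivIrr G, rfl⟩ hψq Helper81.trivIrr_mem_principalBlock, mul_zero]
  · intro hnot
    exact absurd (Finset.mem_filter.mpr ⟨Finset.mem_univ _, Helper81.trivIrr_mem_principalBlock⟩)
      hnot

/-- If `p ≠ q` divide `|G|` and `G` has no element of order `pq`, then the principal `p`-block and
the principal `q`-block have a common non-principal character. -/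
theorem exists_common_nontrivial {p q : ℕ} [hp : Fact p.Prime] [hq : Fact q.Prime] (hpq : p ≠ q)
    (hpG : p ∣ Nat.card G) (hqG : q ∣ Nat.card G) (hno : ∀ g : G, orderOf g ≠ p * q)
    {Mp Mq : Ideal Cfsg.AlgInt} (hMp : Cfsg.IsPModular p Mp) (hMq : Cfsg.IsPModular q Mq) :
    ∃ χ : Cfsg.IrrCharacter G, (χ : G → ℂ) ≠ (fun _ => 1) ∧ χ ∈ Cfsg.principalBlock Mp G ∧
      χ ∈ Cfsg.principalBlock Mq G := by
  classical
  by_contra hcon
  have h : ∀ χ : Cfsg.IrrCharacter G, χ ∈ Cfsg.principalBlock Mp G →
      χ ∈ Cfsg.principalBlock Mq G → (χ : G → ℂ) = fun _ => 1 := by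
    intro χ h1 h2
    by_contra h3
    exact hcon ⟨χ, h3, h1, h2⟩
  have hmain := card_mul_pqRegular hMp hMq h
  -- the three finsets
  set A : Finset G := Finset.univ.filter (fun g : G => ¬ p ∣ orderOf g) with hA
  set B : Finset G := Finset.univ.filter (fun g : G => ¬ q ∣ orderOf g) with hB
  have hAcard : pregCard p G = A.card := by
    rw [pregCard, Nat.card_eq_fintype_card, Fintype.card_subtype]
  have hBcard : pregCard q G = B.card := by
    rw [pregCard, Nat.card_eq_fintype_card, Fintype.card_subtype]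
  have hsum : ∑ g : G, pregInd p G g * pregInd q G g = ((A ∩ B).card : ℂ) := by
    rw [Finset.card_eq_sum_ones, Nat.cast_sum, ← Finset.sum_filter_add_sum_filter_not Finset.univ
      (fun g : G => g ∈ A ∩ B)]
    have h1 : ∑ g ∈ Finset.univ.filter (fun g : G => ¬ g ∈ A ∩ B),
        pregInd p G g * pregInd q G g = 0 := by
      apply Finset.sum_eq_zero
      intro g hg
      rw [Finset.mem_filter, Finset.mem_inter, hA, hB, Finset.mem_filter, Finset.mem_filter] at hg
      unfold pregInd
      by_cases h1 : p ∣ orderOf g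
      · simp [h1]
      · by_cases h2 : q ∣ orderOf g
        · simp [h2]
        · exact absurd ⟨⟨Finset.mem_univ _, h1⟩, ⟨Finset.mem_univ _, h2⟩⟩ hg.2
    rw [h1, add_zero]
    have h2 : Finset.univ.filter (fun g : G => g ∈ A ∩ B) = A ∩ B := by
      ext g; simp
    rw [h2]
    refine Finset.sum_congr rfl fun g hg => ?_
    rw [Finset.mem_inter, hA, hB, Finset.mem_filter, Finset.mem_filter] at hg
    rw [pregInd_of_not_dvd p hg.1.2, pregInd_of_not_dvd q hg.2.2]
    simp
  -- every element is `p`-regular or `q`-regular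
  have hcover : A ∪ B = Finset.univ := by
    ext g
    simp only [Finset.mem_union, Finset.mem_univ, iff_true, hA, hB, Finset.mem_filter, true_and]
    by_contra hg
    rw [not_or, not_not, not_not] at hg
    obtain ⟨h1, h2⟩ := hg
    have hcop : Nat.Coprime p q := (Nat.coprime_primes hp.out hq.out).2 hpq
    obtain ⟨m, hm⟩ := hcop.mul_dvd_of_dvd_of_dvd h1 h2
    have hm0 : m ≠ 0 := by
      rintro rfl
      rw [mul_zero] at hm
      exact (orderOf_pos g).ne' hm
    have h3 := orderOf_pow_of_dvd (x := g) hm0 ⟨p * q, by rw [hm, mul_comm]⟩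
    rw [hm, Nat.mul_div_cancel _ (Nat.pos_of_ne_zero hm0)] at h3
    exact hno _ h3
  have hie := Finset.card_union_add_card_inter A B
  rw [hcover, Finset.card_univ] at hie
  -- strictness
  have hlt1 : (A ∩ B).card < A.card := by
    apply Finset.card_lt_card
    rw [Finset.ssubset_iff_of_subset Finset.inter_subset_left]
    obtain ⟨x, hx⟩ := exists_prime_orderOf_dvd_card' q hqG
    refine ⟨x, ?_, ?_⟩
    · rw [hA, Finset.mem_filter, hx]
      exact ⟨Finset.mem_univ _, fun h => hpq ((Nat.prime_dvd_prime_iff_eq hp.out hq.out).1 h)⟩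
    · intro h
      have h2 := (Finset.mem_inter.mp h).2
      rw [hB, Finset.mem_filter, hx] at h2
      exact h2.2 dvd_rfl
  have hlt2 : (A ∩ B).card < B.card := by
    apply Finset.card_lt_card
    rw [Finset.ssubset_iff_of_subset Finset.inter_subset_right]
    obtain ⟨x, hx⟩ := exists_prime_orderOf_dvd_card' p hpG
    refine ⟨x, ?_, ?_⟩
    · rw [hB, Finset.mem_filter, hx]
      exact ⟨Finset.mem_univ _, fun h => hpq ((Nat.prime_dvd_prime_iff_eq hq.out hp.out).1 h).symm⟩
    · intro h
      have h2 := (Finset.mem_inter.mp h).1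
      rw [hA, Finset.mem_filter, hx] at h2
      exact h2.2 dvd_rfl
  rw [hsum, hAcard, hBcard, Nat.card_eq_fintype_card] at hmain
  have hnat : Fintype.card G * (A ∩ B).card = A.card * B.card := by exact_mod_cast hmain
  -- arithmetic
  have hz : ((A.card : ℤ) - (A ∩ B).card) * ((B.card : ℤ) - (A ∩ B).card) = 0 := by
    have e1 : (Fintype.card G : ℤ) + (A ∩ B).card = A.card + B.card := by exact_mod_cast hie
    have e2 : (Fintype.card G : ℤ) * (A ∩ B).card = A.card * B.card := by exact_mod_cast hnat
    have e3 : (Fintype.card G : ℤ) = A.card + B.card - (A ∩ B).card := by linarith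
    rw [e3] at e2
    linear_combination -e2
  rcases mul_eq_zero.mp hz with h1 | h1
  · have : (A.card : ℤ) = (A ∩ B).card := by linarith
    have : A.card = (A ∩ B).card := by exact_mod_cast this
    omega
  · have : (B.card : ℤ) = (A ∩ B).card := by linarith
    have : B.card = (A ∩ B).card := by exact_mod_cast this
    omega

end Cfsg.Agent.Helper75
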