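import Mathlib
import Cfsg.Agent.Helper37.Sq1

set_option autoImplicit false

/-!
# S5982, piece FORM2: in characteristic 2, `1 + N` with `N * N = 0` preserves an invertible
hermitian matrix (for any involutive field automorphism `σ`).

Model: by `Helper37.sqz_model`, `F^n ≃ F^k × F^k × F^l` with `N (a, b, c) = (0, a, 0)`;
the form is `⟨(a,b,c), (a',b',c')⟩ = a · σ b' + b · σ a' + c · σ c'`, for which `N` is
self-adjoint, hence `1 + N` an isometry in characteristic 2.
-/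

namespace Cfsg.Agent.Helper75

open Module Polynomial Matrix

section form2aux
variable {F : Type*} [Field F]

theorem form_two_map_map {m n : Type*} (τ : F →+* F) (hτ : ∀ t, τ (τ t) = t)
    (M : Matrix m n F) : (M.map τ).map τ = M := by
  ext i j
  simp [hτ]

theorem form_two_four {a b c d e : Type*} [Fintype b] [Fintype c] [Fintype d]
    (W : Matrix a b F) (X : Matrix b c F) (Y : Matrix c d F) (Z : Matrix d e F)
    (M : Matrix b d F) (h : X * Y = M) : W * X * (Y * Z) = W * M * Z := by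
  rw [← h]
  simp only [Matrix.mul_assoc]

theorem form_two_core {k l n : ℕ} (h2 : (2 : F) = 0) (τ : F →+* F) (hτ : ∀ t, τ (τ t) = t)
    (N : Matrix (Fin n) (Fin n) F)
    (A B : Matrix (Fin k) (Fin n) F) (C : Matrix (Fin l) (Fin n) F)
    (P Q : Matrix (Fin n) (Fin k) F) (R : Matrix (Fin n) (Fin l) F)
    (hAN : A * N = 0) (hBN : B * N = A) (hCN : C * N = 0)
    (hAP : A * P = 1) (hAQ : A * Q = 0) (hAR : A * R = 0)
    (hBP : B * P = 0) (hBQ : B * Q = 1) (hBR : B * R = 0)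
    (hCP : C * P = 0) (hCQ : C * Q = 0) (hCR : C * R = 1)
    (hsum : P * A + Q * B + R * C = 1) :
    ∃ J' : Matrix (Fin n) (Fin n) F, J'.det ≠ 0 ∧ J'.transpose = J'.map τ ∧
      (1 + N).transpose * J' * (1 + N).map τ = J' := by
  have mm : ∀ {m n : Type} (M : Matrix m n F), (M.map τ).map τ = M :=
    fun M => form_two_map_map τ hτ M
  have z0 : ∀ {m n : Type}, (0 : Matrix m n F).map τ = 0 :=
    Matrix.map_zero _ (map_zero τ)
  have o1 : ∀ {m : Type} [DecidableEq m], (1 : Matrix m m F).map τ = 1 :=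
    Matrix.map_one _ (map_zero τ) (map_one τ)
  -- products after applying `τ`
  have tAP : A.map τ * P.map τ = 1 := by rw [← Matrix.map_mul, hAP, o1]
  have tAQ : A.map τ * Q.map τ = 0 := by rw [← Matrix.map_mul, hAQ, z0]
  have tAR : A.map τ * R.map τ = 0 := by rw [← Matrix.map_mul, hAR, z0]
  have tBP : B.map τ * P.map τ = 0 := by rw [← Matrix.map_mul, hBP, z0]
  have tBQ : B.map τ * Q.map τ = 1 := by rw [← Matrix.map_mul, hBQ, o1]
  have tBR : B.map τ * R.map τ = 0 := by rw [← Matrix.map_mul, hBR, z0]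
  have tCP : C.map τ * P.map τ = 0 := by rw [← Matrix.map_mul, hCP, z0]
  have tCQ : C.map τ * Q.map τ = 0 := by rw [← Matrix.map_mul, hCQ, z0]
  have tCR : C.map τ * R.map τ = 1 := by rw [← Matrix.map_mul, hCR, o1]
  have tAN : A.map τ * N.map τ = 0 := by rw [← Matrix.map_mul, hAN, z0]
  have tBN : B.map τ * N.map τ = A.map τ := by rw [← Matrix.map_mul, hBN]
  have tCN : C.map τ * N.map τ = 0 := by rw [← Matrix.map_mul, hCN, z0]
  have nA : Nᵀ * Aᵀ = 0 := by rw [← Matrix.transpose_mul, hAN, Matrix.transpose_zero]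
  have nB : Nᵀ * Bᵀ = Aᵀ := by rw [← Matrix.transpose_mul, hBN]
  have nC : Nᵀ * Cᵀ = 0 := by rw [← Matrix.transpose_mul, hCN, Matrix.transpose_zero]
  refine ⟨Aᵀ * B.map τ + Bᵀ * A.map τ + Cᵀ * C.map τ, ?_, ?_, ?_⟩
  · -- invertible
    apply Matrix.det_ne_zero_of_right_inverse
      (B := P.map τ * Qᵀ + Q.map τ * Pᵀ + R.map τ * Rᵀ)
    simp only [Matrix.add_mul, Matrix.mul_add]
    rw [form_two_four _ _ _ _ _ tBP, form_two_four _ _ _ _ _ tBQ, form_two_four _ _ _ _ _ tBR,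
      form_two_four _ _ _ _ _ tAP, form_two_four _ _ _ _ _ tAQ, form_two_four _ _ _ _ _ tAR,
      form_two_four _ _ _ _ _ tCP, form_two_four _ _ _ _ _ tCQ, form_two_four _ _ _ _ _ tCR]
    simp only [Matrix.mul_zero, Matrix.zero_mul, Matrix.mul_one, add_zero, zero_add]
    rw [← Matrix.transpose_mul, ← Matrix.transpose_mul, ← Matrix.transpose_mul,
      ← Matrix.transpose_add, ← Matrix.transpose_add]
    have h' : Q * B + P * A + R * C = 1 := by rw [← hsum]; abel
    rw [h', Matrix.transpose_one]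
  · -- hermitian
    have e1 : (Aᵀ * B.map τ + Bᵀ * A.map τ + Cᵀ * C.map τ).map τ
        = (A.map τ)ᵀ * B + (B.map τ)ᵀ * A + (C.map τ)ᵀ * C := by
      rw [Matrix.map_add _ (map_add τ), Matrix.map_add _ (map_add τ), Matrix.map_mul,
        Matrix.map_mul, Matrix.map_mul, mm B, mm A, mm C, Matrix.transpose_map,
        Matrix.transpose_map, Matrix.transpose_map]
    rw [e1]
    simp only [Matrix.transpose_add, Matrix.transpose_mul, Matrix.transpose_transpose]
    abel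
  · -- invariant
    have hNJ : Nᵀ * (Aᵀ * B.map τ + Bᵀ * A.map τ + Cᵀ * C.map τ) = Aᵀ * A.map τ := by
      rw [Matrix.mul_add, Matrix.mul_add, ← Matrix.mul_assoc, ← Matrix.mul_assoc,
        ← Matrix.mul_assoc, nA, nB, nC, Matrix.zero_mul, Matrix.zero_mul, zero_add, add_zero]
    have hJN : (Aᵀ * B.map τ + Bᵀ * A.map τ + Cᵀ * C.map τ) * N.map τ = Aᵀ * A.map τ := by
      rw [Matrix.add_mul, Matrix.add_mul, Matrix.mul_assoc, Matrix.mul_assoc,
        Matrix.mul_assoc, tAN, tBN, tCN, Matrix.mul_zero, Matrix.mul_zero, add_zero, add_zero]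
    have hNJN : Nᵀ * (Aᵀ * B.map τ + Bᵀ * A.map τ + Cᵀ * C.map τ) * N.map τ = 0 := by
      rw [hNJ, Matrix.mul_assoc, tAN, Matrix.mul_zero]
    have hdbl : Aᵀ * A.map τ + Aᵀ * A.map τ = 0 := by
      rw [← two_smul F (Aᵀ * A.map τ), h2, zero_smul]
    have hfin : ∀ J : Matrix (Fin n) (Fin n) F, Nᵀ * J = Aᵀ * A.map τ →
        J * N.map τ = Aᵀ * A.map τ → Nᵀ * J * N.map τ = 0 →
        (1 + N)ᵀ * J * (1 + N).map τ = J := by
      intro J h1 h2' h3
      rw [Matrix.map_add _ (map_add τ), o1, Matrix.transpose_add, Matrix.transpose_one]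
      calc (1 + Nᵀ) * J * (1 + N.map τ)
          = J + (Nᵀ * J + J * N.map τ) + Nᵀ * J * N.map τ := by
            simp only [Matrix.add_mul, Matrix.mul_add, Matrix.one_mul, Matrix.mul_one]
            abel
        _ = J := by rw [h3, h1, h2', hdbl, add_zero, add_zero]
    exact hfin _ hNJ hJN hNJN

end form2aux

section fin
variable {F : Type*} [Field F] [Fintype F]

/-! ## PIECE FORM2 -/
theorem form_two (h2 : (2 : F) = 0) (σ : F ≃+* F) (hσ2 : ∀ t, σ (σ t) = t) (n : ℕ)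
    (N : Matrix (Fin n) (Fin n) F) (hN : N * N = 0) :
    ∃ J' : Matrix (Fin n) (Fin n) F, J'.det ≠ 0 ∧ J'.transpose = J'.map σ ∧
      (1 + N).transpose * J' * (1 + N).map σ = J' := by
  classical
  obtain ⟨l, Θ, -, hΘ⟩ := Cfsg.Agent.Helper37.sqz_model N hN N.rank rfl
  obtain ⟨A, hA⟩ : ∃ A : Matrix (Fin N.rank) (Fin n) F, ∀ v, A *ᵥ v = (Θ.symm v).1 :=
    ⟨LinearMap.toMatrix' (LinearMap.fst F _ _ ∘ₗ Θ.symm.toLinearMap), fun v => by
      rw [← Matrix.toLin'_apply, Matrix.toLin'_toMatrix']; rfl⟩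
  obtain ⟨B, hB⟩ : ∃ B : Matrix (Fin N.rank) (Fin n) F, ∀ v, B *ᵥ v = (Θ.symm v).2.1 :=
    ⟨LinearMap.toMatrix'
      (LinearMap.fst F _ _ ∘ₗ LinearMap.snd F _ _ ∘ₗ Θ.symm.toLinearMap), fun v => by
      rw [← Matrix.toLin'_apply, Matrix.toLin'_toMatrix']; rfl⟩
  obtain ⟨C, hC⟩ : ∃ C : Matrix (Fin l) (Fin n) F, ∀ v, C *ᵥ v = (Θ.symm v).2.2 :=
    ⟨LinearMap.toMatrix'
      (LinearMap.snd F _ _ ∘ₗ LinearMap.snd F _ _ ∘ₗ Θ.symm.toLinearMap), fun v => by
      rw [← Matrix.toLin'_apply, Matrix.toLin'_toMatrix']; rfl⟩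
  obtain ⟨P, hP⟩ : ∃ P : Matrix (Fin n) (Fin N.rank) F, ∀ a, P *ᵥ a = Θ (a, 0, 0) :=
    ⟨LinearMap.toMatrix' (Θ.toLinearMap ∘ₗ LinearMap.inl F _ _), fun a => by
      rw [← Matrix.toLin'_apply, Matrix.toLin'_toMatrix']; rfl⟩
  obtain ⟨Q, hQ⟩ : ∃ Q : Matrix (Fin n) (Fin N.rank) F, ∀ b, Q *ᵥ b = Θ (0, b, 0) :=
    ⟨LinearMap.toMatrix' (Θ.toLinearMap ∘ₗ LinearMap.inr F _ _ ∘ₗ LinearMap.inl F _ _),
      fun b => by
      rw [← Matrix.toLin'_apply, Matrix.toLin'_toMatrix']; rfl⟩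
  obtain ⟨R, hR⟩ : ∃ R : Matrix (Fin n) (Fin l) F, ∀ c, R *ᵥ c = Θ (0, 0, c) :=
    ⟨LinearMap.toMatrix' (Θ.toLinearMap ∘ₗ LinearMap.inr F _ _ ∘ₗ LinearMap.inr F _ _),
      fun c => by
      rw [← Matrix.toLin'_apply, Matrix.toLin'_toMatrix']; rfl⟩
  have hΦN : ∀ v, Θ.symm (N *ᵥ v) = (0, (Θ.symm v).1, 0) := by
    intro v
    obtain ⟨⟨a, b, c⟩, rfl⟩ := Θ.surjective v
    rw [hΘ, LinearEquiv.symm_apply_apply, LinearEquiv.symm_apply_apply]
  have hAN : A * N = 0 := by
    apply Matrix.mulVec_injective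
    funext v
    rw [← Matrix.mulVec_mulVec, hA, hΦN, Matrix.zero_mulVec]
  have hBN : B * N = A := by
    apply Matrix.mulVec_injective
    funext v
    rw [← Matrix.mulVec_mulVec, hB, hΦN, hA]
  have hCN : C * N = 0 := by
    apply Matrix.mulVec_injective
    funext v
    rw [← Matrix.mulVec_mulVec, hC, hΦN, Matrix.zero_mulVec]
  have hAP : A * P = 1 := by
    apply Matrix.mulVec_injective
    funext v
    rw [← Matrix.mulVec_mulVec, hP, hA, LinearEquiv.symm_apply_apply, Matrix.one_mulVec]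
  have hAQ : A * Q = 0 := by
    apply Matrix.mulVec_injective
    funext v
    rw [← Matrix.mulVec_mulVec, hQ, hA, LinearEquiv.symm_apply_apply, Matrix.zero_mulVec]
  have hAR : A * R = 0 := by
    apply Matrix.mulVec_injective
    funext v
    rw [← Matrix.mulVec_mulVec, hR, hA, LinearEquiv.symm_apply_apply, Matrix.zero_mulVec]
  have hBP : B * P = 0 := by
    apply Matrix.mulVec_injective
    funext v
    rw [← Matrix.mulVec_mulVec, hP, hB, LinearEquiv.symm_apply_apply, Matrix.zero_mulVec]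
  have hBQ : B * Q = 1 := by
    apply Matrix.mulVec_injective
    funext v
    rw [← Matrix.mulVec_mulVec, hQ, hB, LinearEquiv.symm_apply_apply, Matrix.one_mulVec]
  have hBR : B * R = 0 := by
    apply Matrix.mulVec_injective
    funext v
    rw [← Matrix.mulVec_mulVec, hR, hB, LinearEquiv.symm_apply_apply, Matrix.zero_mulVec]
  have hCP : C * P = 0 := by
    apply Matrix.mulVec_injective
    funext v
    rw [← Matrix.mulVec_mulVec, hP, hC, LinearEquiv.symm_apply_apply, Matrix.zero_mulVec]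
  have hCQ : C * Q = 0 := by
    apply Matrix.mulVec_injective
    funext v
    rw [← Matrix.mulVec_mulVec, hQ, hC, LinearEquiv.symm_apply_apply, Matrix.zero_mulVec]
  have hCR : C * R = 1 := by
    apply Matrix.mulVec_injective
    funext v
    rw [← Matrix.mulVec_mulVec, hR, hC, LinearEquiv.symm_apply_apply, Matrix.one_mulVec]
  have hsum : P * A + Q * B + R * C = 1 := by
    apply Matrix.mulVec_injective
    funext v
    rw [Matrix.add_mulVec, Matrix.add_mulVec, ← Matrix.mulVec_mulVec, ← Matrix.mulVec_mulVec,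
      ← Matrix.mulVec_mulVec, hA, hB, hC, hP, hQ, hR, ← map_add, ← map_add, Matrix.one_mulVec]
    have h : ((Θ.symm v).1, (0 : Fin N.rank → F), (0 : Fin l → F)) + (0, (Θ.symm v).2.1, 0)
        + (0, 0, (Θ.symm v).2.2) = Θ.symm v := by
      simp
    rw [h, LinearEquiv.apply_symm_apply]
  exact form_two_core h2 (σ : F →+* F) hσ2 N A B C P Q R hAN hBN hCN hAP hAQ hAR hBP hBQ hBR
    hCP hCQ hCR hsum

end fin

end Cfsg.Agent.Helper75
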